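import Mathlib
import Cfsg.Agent.Helper21.SPDefs

/-!
# S2401 CALL piece AL: the map `alpha` is additive and sends `Pi.single j t` to `x 0 j.succ t`
-/

set_option autoImplicit false

namespace Cfsg.Agent.Helper92.SPAL

open Cfsg.Agent.Helper83 Cfsg.Agent.Helper21.SP

theorem x_comm {K : Type*} [Field K] {k : ℕ} {Γ : Type*} [Group Γ]
    {x : Fin (k + 3) → Fin (k + 3) → K → Γ} (hx : StN x) (a b : Fin (k + 2)) (t u : K) :
    Commute (x 0 (Fin.succ a) t) (x 0 (Fin.succ b) u) :=
  hx.comm 0 (Fin.succ a) 0 (Fin.succ b) (Fin.succ_ne_zero a).symm (Fin.succ_ne_zero b).symm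
    (Fin.succ_ne_zero b).symm (Fin.succ_ne_zero a) t u

theorem x_zero {K : Type*} [Field K] {k : ℕ} {Γ : Type*} [Group Γ]
    {x : Fin (k + 3) → Fin (k + 3) → K → Γ} (hx : StN x) (a : Fin (k + 2)) :
    x 0 (Fin.succ a) 0 = 1 := by
  have h := hx.add 0 (Fin.succ a) (Fin.succ_ne_zero a).symm 0 0
  rw [add_zero] at h
  exact mul_eq_left.1 h

theorem list_add {K : Type*} [Field K] {k : ℕ} {Γ : Type*} [Group Γ]
    {x : Fin (k + 3) → Fin (k + 3) → K → Γ} (hx : StN x) (r s : Fin (k + 2) → K)
    (l : List (Fin (k + 2))) :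
    (l.map (fun j => x 0 (Fin.succ j) ((r + s) j))).prod =
      (l.map (fun j => x 0 (Fin.succ j) (r j))).prod *
        (l.map (fun j => x 0 (Fin.succ j) (s j))).prod := by
  induction l with
  | nil => simp
  | cons a l ih =>
    rw [List.map_cons, List.map_cons, List.map_cons, List.prod_cons, List.prod_cons,
      List.prod_cons, ih, Pi.add_apply,
      ← hx.add 0 (Fin.succ a) (Fin.succ_ne_zero a).symm (r a) (s a)]
    have hc : Commute (x 0 (Fin.succ a) (s a))
        (l.map (fun j => x 0 (Fin.succ j) (r j))).prod := by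
      apply Commute.list_prod_right
      intro y hy
      rw [List.mem_map] at hy
      obtain ⟨b, -, rfl⟩ := hy
      exact x_comm hx a b _ _
    calc x 0 (Fin.succ a) (r a) * x 0 (Fin.succ a) (s a) *
          ((l.map (fun j => x 0 (Fin.succ j) (r j))).prod *
            (l.map (fun j => x 0 (Fin.succ j) (s j))).prod)
        = x 0 (Fin.succ a) (r a) * (x 0 (Fin.succ a) (s a) *
          (l.map (fun j => x 0 (Fin.succ j) (r j))).prod) *
            (l.map (fun j => x 0 (Fin.succ j) (s j))).prod := by group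
      _ = x 0 (Fin.succ a) (r a) * ((l.map (fun j => x 0 (Fin.succ j) (r j))).prod *
          x 0 (Fin.succ a) (s a)) *
            (l.map (fun j => x 0 (Fin.succ j) (s j))).prod := by rw [hc.eq]
      _ = _ := by group

theorem alpha_add {K : Type*} [Field K] {k : ℕ} {Γ : Type*} [Group Γ]
    {x : Fin (k + 3) → Fin (k + 3) → K → Γ} (hx : StN x) (r s : Fin (k + 2) → K) :
    alpha x (r + s) = alpha x r * alpha x s :=
  list_add hx r s _

theorem list_single {K : Type*} [Field K] {k : ℕ} {Γ : Type*} [Group Γ]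
    {x : Fin (k + 3) → Fin (k + 3) → K → Γ} (hx : StN x) (j : Fin (k + 2)) (t : K)
    (l : List (Fin (k + 2))) (hl : l.Nodup) :
    (l.map (fun i => x 0 (Fin.succ i) ((Pi.single j t : Fin (k + 2) → K) i))).prod =
      if j ∈ l then x 0 (Fin.succ j) t else 1 := by
  induction l with
  | nil => simp
  | cons a l ih =>
    rw [List.nodup_cons] at hl
    rw [List.map_cons, List.prod_cons, ih hl.2]
    by_cases haj : a = j
    · subst haj
      rw [Pi.single_eq_same, if_neg hl.1, mul_one, if_pos List.mem_cons_self]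
    · rw [Pi.single_eq_of_ne haj, x_zero hx, one_mul]
      by_cases hjl : j ∈ l
      · rw [if_pos hjl, if_pos (List.mem_cons_of_mem _ hjl)]
      · rw [if_neg hjl, if_neg]
        intro h
        rcases List.mem_cons.1 h with h | h
        · exact haj h.symm
        · exact hjl h

theorem alpha_single {K : Type*} [Field K] {k : ℕ} {Γ : Type*} [Group Γ]
    {x : Fin (k + 3) → Fin (k + 3) → K → Γ} (hx : StN x) (j : Fin (k + 2)) (t : K) :
    alpha x (Pi.single j t) = x 0 (Fin.succ j) t := by
  have h := list_single hx j t (List.finRange (k + 2)) (List.nodup_finRange _)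
  rw [if_pos (List.mem_finRange j)] at h
  exact h

end Cfsg.Agent.Helper92.SPAL
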