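import Mathlib
import Cfsg.Agent.Helper21.SPDefs

/-!
# S2401 CALL piece BETA: the matrix of `ψ g` is the block matrix `emb g`
-/

set_option autoImplicit false

namespace Cfsg.Agent.Helper92.SPBETA

open Cfsg.Agent.Helper83 Cfsg.Agent.Helper21.SP

theorem emb_mul {K : Type*} [Field K] {k : ℕ} (A B : Matrix (Fin (k + 2)) (Fin (k + 2)) K) :
    emb (A * B) = emb A * emb B := by
  ext a b
  rw [Matrix.mul_apply, Fin.sum_univ_succ]
  refine Fin.cases ?_ (fun a' => ?_) a <;> refine Fin.cases ?_ (fun b' => ?_) b <;>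
    simp [emb, Matrix.mul_apply]

theorem emb_tv {K : Type*} [Field K] {k : ℕ} (i j : Fin (k + 2)) (a : K) :
    emb (Matrix.transvection i j a) = Matrix.transvection (Fin.succ i) (Fin.succ j) a := by
  ext p q
  refine Fin.cases ?_ (fun p' => ?_) p <;> refine Fin.cases ?_ (fun q' => ?_) q <;>
    simp [emb, Matrix.transvection, Matrix.one_apply, Matrix.single_apply, Fin.succ_ne_zero,
      (Fin.succ_ne_zero _).symm]

theorem beta {K : Type*} [Field K] {k : ℕ} {Γ : Type*} [Group Γ]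
    {x : Fin (k + 3) → Fin (k + 3) → K → Γ}
    {π : Γ →* Matrix.SpecialLinearGroup (Fin (k + 3)) K}
    {ψ : Matrix.SpecialLinearGroup (Fin (k + 2)) K →* Γ}
    (hπ : ∀ i j, i ≠ j → ∀ t, π (x i j t) = tv i j t)
    (hψ : ∀ i j, i ≠ j → ∀ t, ψ (tv i j t) = x (Fin.succ i) (Fin.succ j) t)
    (g : Matrix.SpecialLinearGroup (Fin (k + 2)) K) :
    ((π (ψ g) : Matrix.SpecialLinearGroup (Fin (k + 3)) K) :
      Matrix (Fin (k + 3)) (Fin (k + 3)) K) =
      emb (g : Matrix (Fin (k + 2)) (Fin (k + 2)) K) := by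
  have : Nontrivial (Fin (k + 2)) := Fin.nontrivial_iff_two_le.2 (by omega)
  refine Cfsg.Agent.Helper5.SL_transvection_induction
    (fun g => ((π (ψ g) : Matrix.SpecialLinearGroup (Fin (k + 3)) K) :
      Matrix (Fin (k + 3)) (Fin (k + 3)) K) =
      emb (g : Matrix (Fin (k + 2)) (Fin (k + 2)) K)) ?_ ?_ g
  · intro i j hij a
    have h1 : (Matrix.SpecialLinearGroup.transvection hij a :
        Matrix.SpecialLinearGroup (Fin (k + 2)) K) = tv i j a := by
      unfold tv
      rw [dif_pos hij]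
    have hs : Fin.succ i ≠ Fin.succ j := fun e => hij (Fin.succ_injective _ e)
    show ((π (ψ (Matrix.SpecialLinearGroup.transvection hij a)) :
      Matrix.SpecialLinearGroup (Fin (k + 3)) K) : Matrix (Fin (k + 3)) (Fin (k + 3)) K) =
      emb (Matrix.transvection i j a)
    rw [h1, hψ i j hij, hπ _ _ hs, emb_tv]
    unfold tv
    rw [dif_pos hs]
    rfl
  · intro A B hA hB
    show ((π (ψ (A * B)) : Matrix.SpecialLinearGroup (Fin (k + 3)) K) :
      Matrix (Fin (k + 3)) (Fin (k + 3)) K) = emb ((A * B :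
        Matrix.SpecialLinearGroup (Fin (k + 2)) K) : Matrix (Fin (k + 2)) (Fin (k + 2)) K)
    rw [map_mul, map_mul, Matrix.SpecialLinearGroup.coe_mul, hA, hB,
      Matrix.SpecialLinearGroup.coe_mul, emb_mul]

end Cfsg.Agent.Helper92.SPBETA
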