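import Mathlib
import Cfsg.Agent.Helper21.SPDefs

/-!
# S2401 CALL piece PIAL: the matrix of `alpha x r` is `amat r`
-/

set_option autoImplicit false

namespace Cfsg.Agent.Helper92.SPPIAL

open Cfsg.Agent.Helper83 Cfsg.Agent.Helper21.SP

theorem amat_zero {K : Type*} [Field K] {k : ℕ} : amat (0 : Fin (k + 2) → K) = 1 := by
  ext a b
  refine Fin.cases ?_ (fun a' => ?_) a
  · refine Fin.cases ?_ (fun b' => ?_) b
    · simp [amat]
    · simp [amat, (Fin.succ_ne_zero b').symm]
  · simp [amat, Matrix.one_apply]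

theorem tv_coe {K : Type*} [Field K] {k : ℕ} (a : Fin (k + 2)) (c : K) :
    ((tv (0 : Fin (k + 3)) (Fin.succ a) c : Matrix.SpecialLinearGroup (Fin (k + 3)) K) :
      Matrix (Fin (k + 3)) (Fin (k + 3)) K) = Matrix.transvection 0 (Fin.succ a) c := by
  unfold tv
  rw [dif_pos (Fin.succ_ne_zero a).symm]
  rfl

theorem tv_mul_amat {K : Type*} [Field K] {k : ℕ} (a : Fin (k + 2)) (c : K)
    (s : Fin (k + 2) → K) :
    Matrix.transvection (0 : Fin (k + 3)) (Fin.succ a) c * amat s = amat (s + Pi.single a c) := by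
  ext i j
  refine Fin.cases ?_ (fun i' => ?_) i
  · rw [Matrix.transvection_mul_apply_same]
    refine Fin.cases ?_ (fun j' => ?_) j
    · simp [amat]
    · by_cases h : j' = a
      · subst h
        simp [amat]
      · simp [amat, h]
        intro e
        exact absurd e.symm h
  · rw [Matrix.transvection_mul_apply_of_ne _ _ _ _ (Fin.succ_ne_zero i')]
    simp [amat]

theorem pi_alpha {K : Type*} [Field K] {k : ℕ} {Γ : Type*} [Group Γ]
    {x : Fin (k + 3) → Fin (k + 3) → K → Γ}
    {π : Γ →* Matrix.SpecialLinearGroup (Fin (k + 3)) K}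
    (hπ : ∀ i j, i ≠ j → ∀ t, π (x i j t) = tv i j t) (r : Fin (k + 2) → K) :
    ((π (alpha x r) : Matrix.SpecialLinearGroup (Fin (k + 3)) K) :
      Matrix (Fin (k + 3)) (Fin (k + 3)) K) = amat r := by
  have key : ∀ l : List (Fin (k + 2)),
      ((π ((l.map (fun j => x 0 (Fin.succ j) (r j))).prod) :
        Matrix.SpecialLinearGroup (Fin (k + 3)) K) : Matrix (Fin (k + 3)) (Fin (k + 3)) K) =
        amat ((l.map (fun j => (Pi.single j (r j) : Fin (k + 2) → K))).sum) := by
    intro l
    induction l with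
    | nil =>
      rw [List.map_nil, List.prod_nil, map_one, List.map_nil, List.sum_nil, amat_zero]
      rfl
    | cons a l ih =>
      rw [List.map_cons, List.prod_cons, map_mul, Matrix.SpecialLinearGroup.coe_mul, ih,
        hπ 0 (Fin.succ a) (Fin.succ_ne_zero a).symm, tv_coe, tv_mul_amat, List.map_cons,
        List.sum_cons]
      exact congrArg amat (add_comm _ _)
  have h := key (List.finRange (k + 2))
  have hs : ((List.finRange (k + 2)).map (fun j => (Pi.single j (r j) : Fin (k + 2) → K))).sum
      = r := by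
    rw [← Fin.sum_univ_def]
    exact Finset.univ_sum_single r
  rw [hs] at h
  exact h

end Cfsg.Agent.Helper92.SPPIAL
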