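import Mathlib
import Cfsg.Agent.Helper21.SPDefs

/-!
# S2401 CALL piece QCOL: the matrices of the elements of `Qg` have first column `e₀`
-/

set_option autoImplicit false

namespace Cfsg.Agent.Helper92.SPQCOL

open Cfsg.Agent.Helper83 Cfsg.Agent.Helper21.SP

theorem colE_one {K : Type*} [Field K] {n : ℕ} (c : Fin n) :
    ColE (1 : Matrix.SpecialLinearGroup (Fin n) K) c := by
  intro a
  rw [Matrix.SpecialLinearGroup.coe_one, Matrix.one_apply]

theorem colE_mul {K : Type*} [Field K] {n : ℕ} {c : Fin n}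
    {M N : Matrix.SpecialLinearGroup (Fin n) K} (hM : ColE M c) (hN : ColE N c) :
    ColE (M * N) c := by
  intro a
  rw [Matrix.SpecialLinearGroup.coe_mul, Matrix.mul_apply]
  have h : ∀ b : Fin n, (M : Matrix (Fin n) (Fin n) K) a b * (N : Matrix (Fin n) (Fin n) K) b c =
      if b = c then (M : Matrix (Fin n) (Fin n) K) a c else 0 := by
    intro b
    rw [hN b]
    by_cases hb : b = c
    · rw [if_pos hb, if_pos hb, mul_one, hb]
    · rw [if_neg hb, if_neg hb, mul_zero]
  rw [Finset.sum_congr rfl (fun b _ => h b), Finset.sum_ite_eq' Finset.univ c, if_pos (Finset.mem_univ c)]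
  exact hM a

theorem colE_inv {K : Type*} [Field K] {n : ℕ} {c : Fin n}
    {M : Matrix.SpecialLinearGroup (Fin n) K} (hM : ColE M c) : ColE M⁻¹ c := by
  intro a
  have h : (M⁻¹ * M : Matrix.SpecialLinearGroup (Fin n) K) = 1 := inv_mul_cancel M
  have h2 : ((M⁻¹ * M : Matrix.SpecialLinearGroup (Fin n) K) : Matrix (Fin n) (Fin n) K) a c =
      ((1 : Matrix.SpecialLinearGroup (Fin n) K) : Matrix (Fin n) (Fin n) K) a c := by rw [h]
  rw [Matrix.SpecialLinearGroup.coe_mul, Matrix.SpecialLinearGroup.coe_one, Matrix.mul_apply,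
    Matrix.one_apply] at h2
  have h3 : ∀ b : Fin n, (↑M⁻¹ : Matrix (Fin n) (Fin n) K) a b *
      (M : Matrix (Fin n) (Fin n) K) b c =
      if b = c then (↑M⁻¹ : Matrix (Fin n) (Fin n) K) a c else 0 := by
    intro b
    rw [hM b]
    by_cases hb : b = c
    · rw [if_pos hb, if_pos hb, mul_one, hb]
    · rw [if_neg hb, if_neg hb, mul_zero]
  rw [Finset.sum_congr rfl (fun b _ => h3 b), Finset.sum_ite_eq' Finset.univ c,
    if_pos (Finset.mem_univ c)] at h2
  exact h2

theorem q_col {K : Type*} [Field K] {k : ℕ} {Γ : Type*} [Group Γ]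
    {x : Fin (k + 3) → Fin (k + 3) → K → Γ}
    {π : Γ →* Matrix.SpecialLinearGroup (Fin (k + 3)) K}
    (hπ : ∀ i j, i ≠ j → ∀ t, π (x i j t) = tv i j t) :
    ∀ q ∈ Qg x, ColE (π q) 0 := by
  intro q hq
  refine Subgroup.closure_induction (p := fun q _ => ColE (π q) 0) ?_ ?_ ?_ ?_ hq
  · rintro _ ⟨i, j, t, hij, hj, rfl⟩
    rw [hπ i j hij]
    intro a
    unfold tv
    rw [dif_pos hij]
    show (Matrix.transvection i j t) a 0 = _
    simp [Matrix.transvection, Matrix.one_apply, hj]
  · rw [map_one]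
    exact colE_one 0
  · intro a b _ _ ha hb
    rw [map_mul]
    exact colE_mul ha hb
  · intro a _ ha
    rw [map_inv]
    exact colE_inv ha

end Cfsg.Agent.Helper92.SPQCOL
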