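import Mathlib
import Cfsg.Agent.Helper15.B42Defs

/-!
# S4503 CALL piece DEG: the degree of a character of small exceptional shape
-/

universe u
set_option autoImplicit false
open Cfsg Cfsg.Agent.Helper77 Cfsg.Agent.Helper15
open scoped ComplexConjugate

namespace Cfsg.Agent.Helper92

variable {G : Type u} [Group G] [Finite G]

/-- DEG -/
theorem b42_shape_one (p : ℕ) [Fact p.Prime] (x : G)
    (F : Subgroup (ZMod p)ˣ) (hF : (F : Set (ZMod p)ˣ) = normUnits p x)
    (ψ : G → ℂ) (t : ℕ) (l₀ : ZMod p) (hsh : B42Shape p x ψ t l₀) :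
    ψ 1 = ((t * Nat.card F : ℕ) : ℂ) := by
  have h := hsh 0
  rw [pow_zero] at h
  rw [h]
  have hfin : (normUnits p x).Finite := Set.toFinite _
  have e : ∀ s : (ZMod p)ˣ,
      d1zeta p ^ (((0 : ℕ) : ZMod p) * ((s : (ZMod p)ˣ) : ZMod p) * l₀).val = 1 := by
    intro s
    rw [Nat.cast_zero, zero_mul, zero_mul, ZMod.val_zero, pow_zero]
  simp only [e]
  rw [finsum_mem_eq_finite_toFinset_sum _ hfin, Finset.sum_const, nsmul_eq_mul, mul_one]
  have hc : hfin.toFinset.card = Nat.card F := by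
    rw [← Set.ncard_eq_toFinset_card _ hfin, ← hF]
    exact (Nat.card_coe_set_eq _).symm
  rw [hc]
  push_cast
  rfl

end Cfsg.Agent.Helper92
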