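import Mathlib
import Cfsg.Agent.Helper15.B42Defs
import Cfsg.Agent.Helper3.Frobenius

/-!
# S4503 CALL piece KEYX: the inner products with a non-exceptional character
-/

universe u
set_option autoImplicit false
open Cfsg Cfsg.Agent.Helper77 Cfsg.Agent.Helper15
open scoped ComplexConjugate

namespace Cfsg.Agent.Helper92

variable {G : Type u} [Group G] [Finite G]

/-- KEYX -/
theorem b42_key_X (p : ℕ) [Fact p.Prime] [Fintype G] (χ₁ χ₂ : Cfsg.IrrCharacter G)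
    (hreg : ∀ g : G, ¬ p ∣ orderOf g → (χ₂ : G → ℂ) g = (χ₁ : G → ℂ) g) (hne : χ₁ ≠ χ₂)
    (ζ : Cfsg.IrrCharacter G) (c : ℤ) (hc : c = 1 ∨ c = -1)
    (hval : ∀ g : G, p ∣ orderOf g → (ζ : G → ℂ) g = (c : ℂ)) :
    Cfsg.classInner (b42Prod (χ₁ : G → ℂ) (χ₁ : G → ℂ)) (ζ : G → ℂ) - (c : ℂ)
      = Cfsg.classInner (b42Prod (χ₁ : G → ℂ) (χ₂ : G → ℂ)) (ζ : G → ℂ) := by
  have h11 := Cfsg.Agent.Helper3.classInner_irr χ₁ χ₁
  have h12 := Cfsg.Agent.Helper3.classInner_irr χ₁ χ₂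
  rw [if_pos rfl] at h11
  rw [if_neg hne] at h12
  unfold Cfsg.classInner at h11 h12 ⊢
  unfold b42Prod
  have key : ∀ g : G, (χ₁ : G → ℂ) g * conj ((χ₁ : G → ℂ) g) * conj ((ζ : G → ℂ) g) -
      (χ₁ : G → ℂ) g * conj ((χ₂ : G → ℂ) g) * conj ((ζ : G → ℂ) g) =
      (c : ℂ) * ((χ₁ : G → ℂ) g * conj ((χ₁ : G → ℂ) g) -
        (χ₁ : G → ℂ) g * conj ((χ₂ : G → ℂ) g)) := by
    intro g
    by_cases hg : p ∣ orderOf g
    · rw [hval g hg]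
      have : conj (c : ℂ) = (c : ℂ) := map_intCast (starRingEnd ℂ) c
      rw [this]
      ring
    · rw [hreg g hg]
      ring
  have hsum : (∑ g : G, (χ₁ : G → ℂ) g * conj ((χ₁ : G → ℂ) g) * conj ((ζ : G → ℂ) g)) -
      ∑ g : G, (χ₁ : G → ℂ) g * conj ((χ₂ : G → ℂ) g) * conj ((ζ : G → ℂ) g) =
      (c : ℂ) * ((∑ g : G, (χ₁ : G → ℂ) g * conj ((χ₁ : G → ℂ) g)) -
        ∑ g : G, (χ₁ : G → ℂ) g * conj ((χ₂ : G → ℂ) g)) := by
    rw [← Finset.sum_sub_distrib, ← Finset.sum_sub_distrib, Finset.mul_sum]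
    exact Finset.sum_congr rfl (fun g _ => key g)
  linear_combination (Nat.card G : ℂ)⁻¹ * hsum + (c : ℂ) * h11 - (c : ℂ) * h12

end Cfsg.Agent.Helper92
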