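import Mathlib
import Cfsg.Agent.Helper15.B42Defs

/-!
# S4503 CALL piece PSING: every `p`-singular element is conjugate to some `x ^ b * k`
-/

universe u
set_option autoImplicit false
open Cfsg Cfsg.Agent.Helper77 Cfsg.Agent.Helper15
open scoped ComplexConjugate Pointwise

namespace Cfsg.Agent.Helper92

variable {G : Type u} [Group G] [Finite G]

/-- PSING -/
theorem b42_psing (p : ℕ) [Fact p.Prime] (x : G) (K : Subgroup G) (h : D1Hyp p x K) (g : G)
    (hg : p ∣ orderOf g) :
    ∃ (y : G) (b : ℕ) (k : G), ¬ p ∣ b ∧ k ∈ K ∧ y * g * y⁻¹ = x ^ b * k := by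
  have hp := (Fact.out : p.Prime)
  obtain ⟨m, hm⟩ := hg
  have hgpos : 0 < orderOf g := orderOf_pos g
  have hmpos : 0 < m := by
    rcases Nat.eq_zero_or_pos m with h0 | h0
    · rw [h0, mul_zero] at hm
      omega
    · exact h0
  have hg' : orderOf (g ^ m) = p := by
    rw [orderOf_pow' g hmpos.ne', hm, Nat.gcd_eq_right (dvd_mul_left m p),
      Nat.mul_div_cancel _ hmpos]
  have hxcard : Nat.card (Subgroup.zpowers x) = p := by rw [Nat.card_zpowers, h.hx]
  have hPx : IsPGroup p (Subgroup.zpowers x) :=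
    IsPGroup.of_card (n := 1) (by rw [hxcard, pow_one])
  obtain ⟨P, hP⟩ := hPx.exists_le_sylow
  have hfac : (Nat.card G).factorization p = 1 := by
    have h1 : p ∣ Nat.card G := by
      rw [← h.hx]
      exact orderOf_dvd_natCard x
    have hle : 1 ≤ (Nat.card G).factorization p :=
      (hp.dvd_iff_one_le_factorization Nat.card_pos.ne').1 h1
    have hlt : (Nat.card G).factorization p < 2 := by
      by_contra hge
      push Not at hge
      exact h.hsq ((hp.pow_dvd_iff_le_factorization Nat.card_pos.ne').2 hge)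
    omega
  have hPcard : Nat.card P = p := by
    rw [Sylow.card_eq_multiplicity, hfac, pow_one]
  have hPeq : Subgroup.zpowers x = (P : Subgroup G) :=
    Subgroup.eq_of_le_of_card_ge hP (by rw [hPcard, hxcard])
  have hPg : IsPGroup p (Subgroup.zpowers (g ^ m)) :=
    IsPGroup.of_card (n := 1) (by rw [Nat.card_zpowers, hg', pow_one])
  obtain ⟨Q, hQ⟩ := hPg.exists_le_sylow
  obtain ⟨y, hy⟩ := MulAction.exists_smul_eq G Q P
  have hmem : y * g ^ m * y⁻¹ ∈ (P : Subgroup G) := by
    rw [← hy, Sylow.coe_subgroup_smul]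
    have h1 : MulAut.conj y • (g ^ m) ∈ MulAut.conj y • (Q : Subgroup G) :=
      Subgroup.smul_mem_pointwise_smul _ _ _ (hQ (Subgroup.mem_zpowers _))
    rwa [MulAut.smul_def, MulAut.conj_apply] at h1
  rw [← hPeq] at hmem
  have hmem' := (isOfFinOrder_of_finite x).mem_powers_iff_mem_zpowers.2 hmem
  obtain ⟨i, hi⟩ := (Submonoid.mem_powers_iff _ _).1 hmem'
  have hi' : x ^ i = y * g ^ m * y⁻¹ := hi
  have hpi : ¬ p ∣ i := by
    intro hd
    have h1 : x ^ i = 1 := by
      rw [← h.hx] at hd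
      exact orderOf_dvd_iff_pow_eq_one.1 hd
    rw [h1] at hi'
    have h2 : g ^ m = 1 := by
      have : g ^ m = y⁻¹ * (y * g ^ m * y⁻¹) * y := by group
      rw [this, ← hi']
      group
    rw [h2, orderOf_one] at hg'
    exact hp.one_lt.ne hg'
  have hpow : (y * g * y⁻¹) ^ m = x ^ i := by rw [conj_pow, hi']
  have hc1 : Commute (y * g * y⁻¹) (x ^ i) := by
    rw [← hpow]
    exact (Commute.refl _).pow_right m
  obtain ⟨j, -, hj⟩ := Nat.exists_mul_mod_eq_one_of_coprime
    ((Nat.Prime.coprime_iff_not_dvd hp).2 hpi).symm hp.one_lt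
  have hxij : (x ^ i) ^ j = x := by
    rw [← pow_mul, ← pow_mod_orderOf, h.hx, hj, pow_one]
  have hc2 : Commute (y * g * y⁻¹) x := by
    rw [← hxij]
    exact hc1.pow_right j
  obtain ⟨i', k, hk, hgk⟩ := (h.hC _).1 hc2
  refine ⟨y, i', k, ?_, hk, hgk⟩
  intro hd
  have h1 : x ^ i' = 1 := by
    rw [← h.hx] at hd
    exact orderOf_dvd_iff_pow_eq_one.1 hd
  rw [h1, one_mul] at hgk
  have ho : orderOf (y * g * y⁻¹) = orderOf g := by
    have := MulEquiv.orderOf_eq (MulAut.conj y) g
    rwa [MulAut.conj_apply] at this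
  apply h.hK
  have h2 : orderOf (⟨k, hk⟩ : K) ∣ Nat.card K := orderOf_dvd_natCard _
  rw [← Subgroup.orderOf_coe] at h2
  have h3 : orderOf k = p * m := by
    have : (⟨k, hk⟩ : K).1 = k := rfl
    rw [← hgk, ho, hm]
  have h4 : ((⟨k, hk⟩ : K) : G) = k := rfl
  rw [h4, h3] at h2
  exact (dvd_mul_right p m).trans h2

end Cfsg.Agent.Helper92
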