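import Mathlib
import Cfsg.Agent.Helper15.B42Defs

/-!
# S4503 CALL piece PSING2: the elements `x ^ b * k` are `p`-singular
-/

universe u
set_option autoImplicit false
open Cfsg Cfsg.Agent.Helper77 Cfsg.Agent.Helper15
open scoped ComplexConjugate

namespace Cfsg.Agent.Helper92

variable {G : Type u} [Group G] [Finite G]

/-- PSING2 -/
theorem b42_psing_mul (p : ℕ) [Fact p.Prime] (x : G) (K : Subgroup G) (h : D1Hyp p x K) (b : ℕ)
    (hb : ¬ p ∣ b) (k : G) (hk : k ∈ K) : p ∣ orderOf (x ^ b * k) := by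
  have hp := (Fact.out : p.Prime)
  have hcomm : Commute k x := (h.hC k).2 ⟨0, k, hk, by rw [pow_zero, one_mul]⟩
  have hxb : orderOf (x ^ b) = p := by
    have hcb : (orderOf x).Coprime b := by
      rw [h.hx]
      exact (Nat.Prime.coprime_iff_not_dvd hp).2 hb
    rw [hcb.orderOf_pow, h.hx]
  have hko : ¬ p ∣ orderOf k := by
    intro hd
    apply h.hK
    have h1 : orderOf (⟨k, hk⟩ : K) ∣ Nat.card K := orderOf_dvd_natCard _
    rw [← Subgroup.orderOf_coe] at h1
    exact hd.trans h1
  have hco : (orderOf (x ^ b)).Coprime (orderOf k) := by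
    rw [hxb]
    exact (Nat.Prime.coprime_iff_not_dvd hp).2 hko
  have hc2 : Commute (x ^ b) k := hcomm.symm.pow_left b
  rw [hc2.orderOf_mul_eq_mul_orderOf_of_coprime hco, hxb]
  exact dvd_mul_right _ _

end Cfsg.Agent.Helper92
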