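import Cfsg.Agent.Helper92.MonsterType

/-!
# Groups of Monster type: the commutator pairing

* `MSetting.comm_iff`: elements of `Q` representing the lattice vectors `v`, `w` commute iff
  `dotInt v w` is divisible by `16` (the commutator pairing on `Q / Z(Q)` is the form
  "inner product divided by 8, modulo 2" of the lattice modulo 2).
-/

set_option autoImplicit false

namespace Cfsg.Agent.Helper92

open Cfsg Cfsg.Agent.S5408

namespace MSetting

variable {G : Type*} [Group G] {z : G} {QG : Subgroup G} {Rep : leechLattice → G → Prop}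

theorem comm_iff_sq (M : MSetting z QG Rep) {x y : G} (hx : x ∈ QG) (hy : y ∈ QG) :
    x * y = y * x ↔ ((x * y) * (x * y) = 1 ↔ (x * x = 1 ↔ y * y = 1)) := by
  have e1 : x * y = y * x ↔ (x * y) * (x * y) = (x * x) * (y * y) := by
    constructor
    · intro h
      calc x * y * (x * y) = x * (y * x) * y := by group
        _ = x * (x * y) * y := by rw [h]
        _ = x * x * (y * y) := by group
    · intro h
      have h2 : x * (y * x) * y = x * (x * y) * y := by
        calc x * (y * x) * y = x * y * (x * y) := by group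
          _ = x * x * (y * y) := h
          _ = x * (x * y) * y := by group
      exact (mul_left_cancel (mul_right_cancel h2)).symm
  rw [e1]
  have hz1 : z ≠ 1 := M.les.ne_one
  rcases M.sq_cases hx with hx1 | hx1 <;> rcases M.sq_cases hy with hy1 | hy1 <;>
    rcases M.sq_cases (QG.mul_mem hx hy) with hxy | hxy <;> rw [hx1, hy1, hxy]
  · simp
  · simp [hz1]
  · simp [hz1, eq_comm]
  · simp [hz1]
  · simp [hz1, eq_comm]
  · simp [hz1]
  · simp [hz1, M.zsq]
  · simp [hz1, M.zsq]

/-- **The commutator pairing is the inner product modulo 2.** -/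
theorem comm_iff (M : MSetting z QG Rep) {v w : leechLattice} {x y : G} (hv : Rep v x)
    (hw : Rep w y) :
    x * y = y * x ↔ (16 : ℤ) ∣ dotInt (v : GolayPt → ℤ) (w : GolayPt → ℤ) := by
  rw [M.comm_iff_sq (M.mem _ _ hv) (M.mem _ _ hw), M.type_eq hv, M.type_eq hw,
    M.type_eq (M.mul _ _ _ _ hv hw)]
  have h1 := leech_sixteen_dvd v.2
  have h2 := leech_sixteen_dvd w.2
  have h3 := leech_eight_dvd_dotInt v.2 w.2
  have h4 : sqNorm ((v + w : leechLattice) : GolayPt → ℤ) =
      sqNorm (v : GolayPt → ℤ) + sqNorm (w : GolayPt → ℤ) +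
        2 * dotInt (v : GolayPt → ℤ) (w : GolayPt → ℤ) := by
    rw [AddSubgroup.coe_add, sqNorm_add]
  rw [h4]
  obtain ⟨a, ha⟩ := h1
  obtain ⟨b, hb⟩ := h2
  obtain ⟨c, hc⟩ := h3
  rw [ha, hb, hc]
  have e1 : (16 * a + 16 * b + 2 * (8 * c)) / 16 = a + b + c := by omega
  have e2 : 16 * a / 16 = a := by omega
  have e3 : 16 * b / 16 = b := by omega
  rw [e1, e2, e3]
  rw [ZMod.intCast_zmod_eq_zero_iff_dvd, ZMod.intCast_zmod_eq_zero_iff_dvd,
    ZMod.intCast_zmod_eq_zero_iff_dvd]
  have e4 : (16 : ℤ) ∣ 8 * c ↔ (2 : ℤ) ∣ c := by omega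
  rw [e4]
  push_cast
  omega

end MSetting

end Cfsg.Agent.Helper92
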