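import Cfsg.Agent.Helper92.MonsterInter
import Cfsg.Agent.Helper92.MonsterPair
import Cfsg.Agent.Helper92.LeechCo2

/-!
# Groups of Monster type: sign changes induced by `C_{Q^g}(z)`, and an involution of type 2 in
`Q ∩ Q^g`

For `s = g z g⁻¹ ∈ Q`, `s ≠ z`:

* `MSettingF.exists_ind_sign`: if `s` represents `(8,0^23)`, every sign change on a code word
  avoiding `∞` is induced by an element of `C_{Q^g}(z)`;
* `MSettingF.exists_type2_inf_of_U4`, `MSettingF.exists_type2_inf`: `Q ∩ Q^g` contains an element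
  representing a vector in the orbit of `(4,4,0^22)` modulo twice the lattice.
-/

set_option autoImplicit false

namespace Cfsg.Agent.Helper92

open Cfsg

/-- **Every sign change on a code word avoiding `∞` is induced by an element of `C_{Q^g}(z)`**
when `s = g z g⁻¹` represents `(8,0^23)`. -/
theorem MSettingF.exists_ind_sign {G : Type*} [Group G] [Finite G] {z : G} {QG : Subgroup G}
    {Rep : leechLattice → G → Prop} (MF : MSettingF z QG Rep) (g : G)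
    (hgQ : g * z * g⁻¹ ∈ QG) (hgz : g * z * g⁻¹ ≠ z) (hrep : Rep U4 (g * z * g⁻¹))
    (c : Finset GolayPt) (hc : C1 c) :
    ∃ d ∈ QG.map (MulAut.conj g).toMonoidHom, MSetting.Ind Rep z (signAut c hc.1) d := by
  have M := MF.toM
  have hDcard := M.le_card_conj_centralizer g hgQ hgz
  have hEcard := M.card_inf_le g hgQ hgz
  have hD : ∀ d : ↥(QG.map (MulAut.conj g).toMonoidHom ⊓ Subgroup.centralizer ({z} : Set G)),
      ∃ c : {c : Finset GolayPt // C1 c}, MSetting.Ind Rep z (signAut c.1 c.2.1) (d : G) := by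
    rintro ⟨d, hdQ, hdC⟩
    obtain ⟨c, hc, hi⟩ := MF.sign_of_conj g hgQ hgz hrep d hdQ
      ((mem_centralizer_singleton_iff z d).1 hdC)
    exact ⟨⟨c, hc⟩, hi⟩
  generalize QG.map (MulAut.conj g).toMonoidHom = Q1 at hDcard hEcard hD ⊢
  choose κ hκ using hD
  by_contra hcon
  have hnot : (⟨c, hc⟩ : {c : Finset GolayPt // C1 c}) ∉ Set.range κ := by
    rintro ⟨d, hd⟩
    apply hcon
    refine ⟨(d : G), d.2.1, ?_⟩
    have := hκ d
    rw [hd] at this
    exact this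
  have hfib : ∀ d d' : ↥(Q1 ⊓ Subgroup.centralizer ({z} : Set G)), κ d = κ d' →
      (d : G)⁻¹ * (d' : G) ∈ QG ⊓ Q1 := by
    intro d d' h
    have i1 := hκ d
    have i2 := hκ d'
    rw [← h] at i2
    have i3 := MSetting.ind_mul (M.ind_inv i1) i2
    rw [inv_mul_cancel] at i3
    refine ⟨MF.faith _ i3.1 (fun v x hx => ?_), Q1.mul_mem (Q1.inv_mem d.2.1) d'.2.1⟩
    have := i3.2 v x hx
    rwa [one_smul] at this
  have hcount : Nat.card ↥(Q1 ⊓ Subgroup.centralizer ({z} : Set G)) ≤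
      Nat.card ↥(Set.range κ) * Nat.card ↥(QG ⊓ Q1) := by
    classical
    let τ : ↥(Set.range κ) → ↥(Q1 ⊓ Subgroup.centralizer ({z} : Set G)) :=
      fun c => Classical.choose c.2
    have hτ : ∀ c : ↥(Set.range κ), κ (τ c) = c := fun c => Classical.choose_spec c.2
    let Φ : ↥(Q1 ⊓ Subgroup.centralizer ({z} : Set G)) → ↥(Set.range κ) × ↥(QG ⊓ Q1) :=
      fun d => (⟨κ d, d, rfl⟩,
        ⟨((τ ⟨κ d, d, rfl⟩ : ↥(Q1 ⊓ Subgroup.centralizer ({z} : Set G))) : G)⁻¹ * (d : G),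
          hfib (τ ⟨κ d, d, rfl⟩) d (hτ ⟨κ d, d, rfl⟩)⟩)
    have hinj : Function.Injective Φ := by
      intro d d' h
      have h1 : κ d = κ d' := congrArg (fun p : ↥(Set.range κ) × ↥(QG ⊓ Q1) => p.1.1) h
      have h1' : (⟨κ d, d, rfl⟩ : ↥(Set.range κ)) = ⟨κ d', d', rfl⟩ := Subtype.ext h1
      have h2 : ((τ ⟨κ d, d, rfl⟩ : ↥(Q1 ⊓ Subgroup.centralizer ({z} : Set G))) : G)⁻¹ * (d : G) =
          ((τ ⟨κ d', d', rfl⟩ : ↥(Q1 ⊓ Subgroup.centralizer ({z} : Set G))) : G)⁻¹ * (d' : G) :=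
        congrArg (fun p : ↥(Set.range κ) × ↥(QG ⊓ Q1) => (p.2 : G)) h
      rw [h1'] at h2
      exact Subtype.ext (mul_left_cancel h2)
    rw [← Nat.card_prod]
    exact Nat.card_le_card_of_injective Φ hinj
  have hrange : Nat.card ↥(Set.range κ) + 1 ≤ 2048 := by
    have h1 : (Set.range κ).ncard + (Set.range κ)ᶜ.ncard = Nat.card {c : Finset GolayPt // C1 c} :=
      Set.ncard_add_ncard_compl _ (Set.toFinite _) (Set.toFinite _)
    have h2 : 1 ≤ (Set.range κ)ᶜ.ncard := by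
      rw [Nat.succ_le_iff, Set.ncard_pos (Set.toFinite _)]
      exact ⟨_, hnot⟩
    have h3 := card_C1_le
    have h4 : Nat.card ↥(Set.range κ) = (Set.range κ).ncard := Nat.card_coe_set_eq _
    omega
  have h6 : Nat.card ↥(Set.range κ) * Nat.card ↥(QG ⊓ Q1) ≤ 2047 * 2 ^ 13 :=
    Nat.mul_le_mul (by omega) hEcard
  have h7 := hDcard.trans (hcount.trans h6)
  norm_num at h7

theorem C1_oct : C1 oct := ⟨oct_mem, by rw [mem_oct_iff]; decide⟩

theorem o2_mem : Cfsg.Agent.Helper7.setOf 0x49f002 ∈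
    supports (golayCode : Set (GolayPt → ZMod 2)) := setOf_basis_mem (by decide)

/-- the vector `2` on the octad `{1, 12, 13, 14, 15, 16, 19, 22}` -/
def o2L : leechLattice := ⟨twoVec (Cfsg.Agent.Helper7.setOf 0x49f002), twoVec_mem o2_mem⟩

theorem o2L_add_sign :
    o2L + signAut oct oct_mem • o2L = -P (some 1) (some 12) + (o2L + o2L) := by
  apply Subtype.ext
  funext k
  show twoVec (Cfsg.Agent.Helper7.setOf 0x49f002) k +
      signFun oct (twoVec (Cfsg.Agent.Helper7.setOf 0x49f002)) k =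
    -(e4 (some 1) k + e4 (some 12) k) + (twoVec (Cfsg.Agent.Helper7.setOf 0x49f002) k +
      twoVec (Cfsg.Agent.Helper7.setOf 0x49f002) k)
  simp only [signFun_apply, mem_oct_iff, e4_apply, twoVec, Cfsg.Agent.Helper7.mem_setOf]
  revert k
  decide

theorem o2L_dot : (16 : ℤ) ∣ dotInt (o2L : GolayPt → ℤ) (U4 : GolayPt → ℤ) := by
  have h : dotInt (U4 : GolayPt → ℤ) (o2L : GolayPt → ℤ) = 0 := by
    show dotInt (e4 none + e4 none) (twoVec (Cfsg.Agent.Helper7.setOf 0x49f002)) = 0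
    rw [Cfsg.dotInt_add_left, dotInt_e4_left]
    simp only [twoVec, Cfsg.Agent.Helper7.mem_setOf]
    decide
  rw [dotInt_comm, h]
  exact dvd_zero _

/-- **An element of type 2 in `Q ∩ Q^g`** when `s = g z g⁻¹` represents `(8,0^23)`. -/
theorem MSettingF.exists_type2_inf_of_U4 {G : Type*} [Group G] [Finite G] {z : G}
    {QG : Subgroup G} {Rep : leechLattice → G → Prop} (MF : MSettingF z QG Rep) (g : G)
    (hgQ : g * z * g⁻¹ ∈ QG) (hgz : g * z * g⁻¹ ≠ z) (hrep : Rep U4 (g * z * g⁻¹)) :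
    ∃ k : G, k ∈ QG ∧ k ∈ QG.map (MulAut.conj g).toMonoidHom ∧
      ∃ x : leechLattice, Rep x k ∧ Orb x Cfsg.Spor.leechU := by
  have M := MF.toM
  have hc8 : 8 < Nat.card ↥QG := by
    rw [M.card]
    norm_num
  have hP := Cfsg.Agent.Helper90.pair_of_les M.les hc8 g hgQ hgz
  obtain ⟨d, hdQ1, hi⟩ := MF.exists_ind_sign g hgQ hgz hrep oct C1_oct
  obtain ⟨q, hq⟩ := M.ex o2L
  have hqQ := M.mem _ _ hq
  have hqs : q * (g * z * g⁻¹) = (g * z * g⁻¹) * q := (M.comm_iff hq hrep).2 o2L_dot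
  have hk := M.mul _ _ _ _ hq (hi.2 _ _ hq)
  refine ⟨q * (d * q * d⁻¹), M.mem _ _ hk, ?_, _, hk, ?_⟩
  · have e : q * (d * q * d⁻¹) = (q * d * q⁻¹) * (q * q) * d⁻¹ := by group
    rw [e]
    refine Subgroup.mul_mem _ (Subgroup.mul_mem _ (hP.hQ1.norm q hqs d hdQ1) ?_)
      (Subgroup.inv_mem _ hdQ1)
    rcases M.sq_cases hqQ with h | h
    · rw [h]
      exact Subgroup.one_mem _
    · rw [h]
      exact hP.aQ1
  · rw [o2L_add_sign]
    exact (Orb.of_cong ⟨o2L, rfl⟩).trans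
      ((Orb.of_cong (Cong.neg_self _)).trans (orb_P (by decide)))

/-- **An element of type 2 in `Q ∩ Q^g`** for a suitable conjugate `g z g⁻¹ ∈ Q`, `≠ z`. -/
theorem MSettingF.exists_type2_inf {G : Type*} [Group G] [Finite G] {z : G}
    {QG : Subgroup G} {Rep : leechLattice → G → Prop} (MF : MSettingF z QG Rep) :
    ∃ g k : G, g * z * g⁻¹ ∈ QG ∧ g * z * g⁻¹ ≠ z ∧ k ∈ QG ∧
      k ∈ QG.map (MulAut.conj g).toMonoidHom ∧
      ∃ x : leechLattice, Rep x k ∧ Orb x Cfsg.Spor.leechU := by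
  have M := MF.toM
  obtain ⟨g, hgQ, hgz⟩ := M.wit
  obtain ⟨v, hv⟩ := M.surj _ hgQ
  obtain ⟨γ₀, hγ₀⟩ := MF.conj_type4 g hgz hv
  obtain ⟨h₀, hh₀, hact⟩ := M.act γ₀
  have h1 := M.rep_cong (hact _ _ hv) hγ₀
  have e : h₀ * (g * z * g⁻¹) * h₀⁻¹ = (h₀ * g) * z * (h₀ * g)⁻¹ := by group
  rw [e] at h1
  have hgQ' := M.mem _ _ h1
  have hgz' : (h₀ * g) * z * (h₀ * g)⁻¹ ≠ z := by
    intro h2
    apply hgz
    have hh₀' : h₀⁻¹ * z * h₀ = z := by
      calc h₀⁻¹ * z * h₀ = h₀⁻¹ * (z * h₀) := by group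
        _ = h₀⁻¹ * (h₀ * z) := by rw [hh₀]
        _ = z := by group
    calc g * z * g⁻¹ = h₀⁻¹ * ((h₀ * g) * z * (h₀ * g)⁻¹) * h₀ := by group
      _ = z := by rw [h2, hh₀']
  obtain ⟨k, hk1, hk2, hk3⟩ := MF.exists_type2_inf_of_U4 (h₀ * g) hgQ' hgz' h1
  exact ⟨h₀ * g, k, hgQ', hgz', hk1, hk2, hk3⟩

end Cfsg.Agent.Helper92
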