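import Mathlib

/-!
# CALL S1437 (helper2), piece CORE1 (helper92): cardinal arithmetic from the counting formula
-/

set_option autoImplicit false

namespace Cfsg.Agent.Helper92

open Subgroup

universe u

variable {G : Type u} [Group G] [Finite G]

theorem bg15b_core_card {Q Q₁ Ks K : Subgroup G} (hq : (Nat.card Ks).Prime) (hKsQ : Ks ≤ Q)
    (hQ₁Q : Q₁ ≤ Q) (hK1 : K ≠ ⊥) (hQ₁ne : Q₁ ≠ Q) (P : Subgroup G → Prop) (hPQ : P Q)
    (hcnt : ∀ Y K₀ : Subgroup G, Y ≤ Q → P Y → K₀ ≤ K → K₀ ≠ ⊥ →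
      Nat.card ↥(Y ⊓ Q₁ ⊓ Ks) ^ Nat.card K₀ * Nat.card Y =
        Nat.card ↥(Y ⊓ Ks) ^ Nat.card K₀ * Nat.card ↥(Y ⊓ Q₁)) :
    Ks ⊓ Q₁ = ⊥ ∧ Nat.card Q = Nat.card Q₁ * Nat.card Ks ^ Nat.card K ∧ (Nat.card K).Prime := by
  have hqpos : 0 < Nat.card Ks := hq.pos
  have hQ₁pos : 0 < Nat.card Q₁ := Nat.card_pos
  have e1 : Q ⊓ Q₁ = Q₁ := inf_eq_right.mpr hQ₁Q
  have e3 : Q ⊓ Ks = Ks := inf_eq_right.mpr hKsQ
  have hdisj : Ks ⊓ Q₁ = ⊥ := by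
    by_contra hne
    have hdvd : Nat.card ↥(Ks ⊓ Q₁) ∣ Nat.card Ks := Subgroup.card_dvd_of_le inf_le_left
    rcases (Nat.dvd_prime hq).mp hdvd with h1 | h1
    · exact hne (Subgroup.card_eq_one.mp h1)
    · have hle : Ks ≤ Q₁ := by
        have h2 : Ks ⊓ Q₁ = Ks := Subgroup.eq_of_le_of_card_ge inf_le_left (le_of_eq h1.symm)
        exact inf_eq_left.mp h2
      have h := hcnt Q K le_rfl hPQ le_rfl hK1
      have e2 : Q ⊓ Q₁ ⊓ Ks = Ks := by rw [e1]; exact inf_eq_right.mpr hle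
      rw [e2, e3, e1] at h
      have h' : Nat.card Q = Nat.card Q₁ := Nat.eq_of_mul_eq_mul_left (pow_pos hqpos _) h
      exact hQ₁ne (Subgroup.eq_of_le_of_card_ge hQ₁Q (le_of_eq h'))
  have key0 : ∀ K₀ : Subgroup G, K₀ ≤ K → K₀ ≠ ⊥ →
      Nat.card Q = Nat.card Q₁ * Nat.card Ks ^ Nat.card K₀ := by
    intro K₀ h1 h2
    have h := hcnt Q K₀ le_rfl hPQ h1 h2
    have e2 : Q ⊓ Q₁ ⊓ Ks = ⊥ := by rw [e1, inf_comm]; exact hdisj
    rw [e2, e3, e1, Subgroup.card_bot, one_pow, one_mul] at h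
    rw [h, mul_comm]
  have hcard := key0 K le_rfl hK1
  have key : ∀ K₀ : Subgroup G, K₀ ≤ K → K₀ ≠ ⊥ → Nat.card K₀ = Nat.card K := by
    intro K₀ h1 h2
    have h := key0 K₀ h1 h2
    rw [hcard] at h
    have h' := Nat.eq_of_mul_eq_mul_left hQ₁pos h
    exact (Nat.pow_right_injective hq.two_le h').symm
  refine ⟨hdisj, hcard, ?_⟩
  have hK2 : Nat.card K ≠ 1 := fun h => hK1 (Subgroup.card_eq_one.mp h)
  obtain ⟨p, hp, hpd⟩ := Nat.exists_prime_and_dvd hK2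
  haveI := Fact.mk hp
  obtain ⟨x, hx⟩ := exists_prime_orderOf_dvd_card' p hpd
  have hK₀le : Subgroup.zpowers (x : G) ≤ K := (Subgroup.zpowers_le).mpr x.2
  have hK₀ne : Subgroup.zpowers (x : G) ≠ ⊥ := by
    intro h
    rw [Subgroup.zpowers_eq_bot] at h
    have h1 : orderOf (x : G) = 1 := by rw [h, orderOf_one]
    rw [Subgroup.orderOf_coe, hx] at h1
    exact hp.one_lt.ne' h1
  have hc := key (Subgroup.zpowers (x : G)) hK₀le hK₀ne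
  rw [Nat.card_zpowers, Subgroup.orderOf_coe, hx] at hc
  rw [← hc]
  exact hp

end Cfsg.Agent.Helper92
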