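import Mathlib

/-!
# CALL S1437 (helper2), piece CORE2 (helper92): an intermediate subgroup is `Q₁` or `Q`
-/

set_option autoImplicit false

namespace Cfsg.Agent.Helper92

open Subgroup

universe u

variable {G : Type u} [Group G] [Finite G]

theorem bg15b_core_dich {Q Q₁ Ks K : Subgroup G} (hq : (Nat.card Ks).Prime) (hKsQ : Ks ≤ Q)
    (hQ₁Q : Q₁ ≤ Q) (hK1 : K ≠ ⊥) (hQ₁ne : Q₁ ≠ Q) (P : Subgroup G → Prop) (hPQ : P Q)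
    (hcnt : ∀ Y K₀ : Subgroup G, Y ≤ Q → P Y → K₀ ≤ K → K₀ ≠ ⊥ →
      Nat.card ↥(Y ⊓ Q₁ ⊓ Ks) ^ Nat.card K₀ * Nat.card Y =
        Nat.card ↥(Y ⊓ Ks) ^ Nat.card K₀ * Nat.card ↥(Y ⊓ Q₁))
    (hdisj : Ks ⊓ Q₁ = ⊥) (hcard : Nat.card Q = Nat.card Q₁ * Nat.card Ks ^ Nat.card K) :
    ∀ N : Subgroup G, P N → Q₁ ≤ N → N ≤ Q → N = Q₁ ∨ N = Q := by
  intro N hPN hQ₁N hNQ
  have h := hcnt N K hNQ hPN le_rfl hK1
  have e1 : N ⊓ Q₁ = Q₁ := inf_eq_right.mpr hQ₁N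
  have e2 : N ⊓ Q₁ ⊓ Ks = ⊥ := by rw [e1, inf_comm]; exact hdisj
  rw [e2, e1, Subgroup.card_bot, one_pow, one_mul] at h
  have hdvd : Nat.card ↥(N ⊓ Ks) ∣ Nat.card Ks := Subgroup.card_dvd_of_le inf_le_right
  rcases (Nat.dvd_prime hq).mp hdvd with h1 | h1
  · left
    rw [h1, one_pow, one_mul] at h
    exact (Subgroup.eq_of_le_of_card_ge hQ₁N (le_of_eq h)).symm
  · right
    rw [h1] at h
    exact Subgroup.eq_of_le_of_card_ge hNQ (by rw [hcard, h, mul_comm])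

end Cfsg.Agent.Helper92
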