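import Cfsg.Agent.Helper92.Co2InvKer
import Cfsg.Agent.Helper92.Co2InvGen
import Cfsg.Agent.Helper92.Co2Aut
import Cfsg.Agent.Helper91.Co2InvKS
import Cfsg.Agent.Helper41.Co2InvCORE
import Cfsg.Agent.S5434

/-!
# The involution of `Co2` with centraliser `2^{1+8}.Sp(6,2)`: assembly

The centraliser of the involution `t0` in the stabiliser of `leechU` maps onto `Sp(6,2)` with
kernel the extraspecial group `KS` of order `2^9`.
-/

set_option autoImplicit false
open scoped Pointwise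

namespace Cfsg.Agent.Helper92.Co2Inv

open Cfsg MulAction Cfsg.Agent.Helper92.Mat Cfsg.Agent.Helper92.Co3Out
open Cfsg.Agent.Helper7 (inCode setOf idx pt)

/-- the abstract assembly: a surjection onto `Sp(6,2)` whose kernel is carried by an injective
homomorphism onto a set with the extraspecial relations -/
theorem assemble {G H : Type*} [Group G] [Finite G] [Group H]
    (ρ : G →* Matrix.symplecticGroup (Fin 3) (ZMod 2)) (hsurj : Function.Surjective ρ)
    (cv : G →* H) (hinj : Function.Injective cv) (K : Set H) (z : G) (t : H)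
    (hker : ∀ x, ρ x = 1 ↔ cv x ∈ K) (hlift : ∀ k ∈ K, ∃ x, cv x = k) (hzt : cv z = t)
    (htK : t ∈ K) (ht1 : t ≠ 1) (hcen : ∀ y : G, z * y = y * z)
    (hn : Set.ncard K = 512)
    (ha : ∀ x ∈ K, ∀ y ∈ K, x * y * x⁻¹ * y⁻¹ = 1 ∨ x * y * x⁻¹ * y⁻¹ = t)
    (hb : ∀ x ∈ K, x ^ 2 = 1 ∨ x ^ 2 = t)
    (hc : ∀ c ∈ K, (∀ y ∈ K, c * y = y * c) → c = 1 ∨ c = t)
    (he : ∃ x ∈ K, ∃ y ∈ K, x * y ≠ y * x) :
    Cfsg.IsExtraspecial 2 ↥(Cfsg.pCore 2 G) ∧ Nat.card ↥(Cfsg.pCore 2 G) = 2 ^ 9 ∧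
      Nonempty (G ⧸ Cfsg.pCore 2 G ≃* Matrix.symplecticGroup (Fin 3) (ZMod 2)) := by
  have hmem : ∀ x, x ∈ ρ.ker ↔ cv x ∈ K := fun x => by
    rw [MonoidHom.mem_ker]
    exact hker x
  have hcard : Nat.card ρ.ker = 2 ^ 9 := by
    have e : ↥ρ.ker ≃ ↥K := Equiv.ofBijective (fun x => ⟨cv x.1, (hmem x.1).1 x.2⟩)
      ⟨fun a b h => Subtype.ext (hinj (congrArg Subtype.val h)), fun k => by
        obtain ⟨x, hx⟩ := hlift k.1 k.2
        exact ⟨⟨x, (hmem x).2 (hx ▸ k.2)⟩, Subtype.ext hx⟩⟩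
    rw [Nat.card_congr e, Nat.card_coe_set_eq, hn]
    norm_num
  have h2 : IsPGroup 2 ρ.ker := IsPGroup.of_card hcard
  obtain ⟨heq, hiso⟩ := Cfsg.Agent.Helper41.core_sp62 ρ hsurj h2
  have hz1 : z ≠ 1 := fun h => ht1 (by rw [← hzt, h, map_one])
  have hzker : z ∈ ρ.ker := (hmem z).2 (hzt ▸ htK)
  have hext : Cfsg.IsExtraspecial 2 ↥ρ.ker := by
    refine Cfsg.Agent.S5434.isExtraspecial_of ρ.ker h2 z hzker hz1 ?_ ?_ ?_ ?_ ?_
    · intro x hx y hy
      have e : cv (x * y * x⁻¹ * y⁻¹) = cv x * cv y * (cv x)⁻¹ * (cv y)⁻¹ := by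
        rw [map_mul, map_mul, map_mul, map_inv, map_inv]
      rcases ha _ ((hmem x).1 hx) _ ((hmem y).1 hy) with h | h
      · left
        apply hinj
        rw [map_one, e, h]
      · right
        apply hinj
        rw [hzt, e, h]
    · intro x hx
      rcases hb _ ((hmem x).1 hx) with h | h
      · left
        apply hinj
        rw [map_one, map_pow, h]
      · right
        apply hinj
        rw [hzt, map_pow, h]
    · intro c hc' hcomm
      have hk : ∀ k ∈ K, cv c * k = k * cv c := by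
        intro k hk
        obtain ⟨y, rfl⟩ := hlift k hk
        rw [← map_mul, ← map_mul, hcomm y ((hmem y).2 hk)]
      rcases hc _ ((hmem c).1 hc') hk with h | h
      · left
        apply hinj
        rw [map_one, h]
      · right
        apply hinj
        rw [hzt, h]
    · intro y _
      exact hcen y
    · obtain ⟨k1, hk1, k2, hk2, hne⟩ := he
      obtain ⟨x, rfl⟩ := hlift k1 hk1
      obtain ⟨y, rfl⟩ := hlift k2 hk2
      exact ⟨x, (hmem x).2 hk1, y, (hmem y).2 hk2,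
        fun h => hne (by rw [← map_mul, ← map_mul, h])⟩
  refine ⟨?_, ?_, hiso⟩
  · rw [heq]
    exact hext
  · rw [heq]
    exact hcard

/-! ### The concrete setting -/

theorem t0_smul_leechU : t0 • Spor.leechU = Spor.leechU := by
  have h6 := supp_fV 6
  rw [fV_six] at h6
  exact (supp_iff _).1 h6

theorem t0_mem_co2Sub : t0 ∈ co2Sub := t0_smul_leechU

theorem t0_mem_KS : t0 ∈ KS := by
  refine ⟨setOf ocM, setOf_mem_supports ocM_ok, 1, one_mem _, ?_, fun i _ => rfl, ?_⟩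
  · exact Finset.disjoint_left.2 (fun p hp => (mem_ocM p).1 hp)
  · rw [permAut_one, mul_one]
    rfl

theorem t0_ne_one : t0 ≠ 1 := by
  intro h
  have h1 : Supp (P (some 3) (some 3)) := by
    rw [supp_iff, h, one_smul]
  have h2 := h1 (some 3) (by decide +kernel)
  rw [P_apply] at h2
  norm_num at h2

/-- the involution as an element of `Spor.Co2` -/
noncomputable def tt : ↥Spor.Co2 := Co2Out.co2Equiv ⟨t0, t0_mem_co2Sub⟩

theorem tt_val : (tt : Equiv.Perm leechLattice) = (t0 : Equiv.Perm leechLattice) := rfl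

theorem orderOf_tt : orderOf tt = 2 := by
  have : Fact (Nat.Prime 2) := ⟨Nat.prime_two⟩
  apply orderOf_eq_prime
  · have h2 : (⟨t0, t0_mem_co2Sub⟩ : ↥co2Sub) ^ 2 = 1 := by
      apply Subtype.ext
      show t0 ^ 2 = 1
      rw [pow_two]
      exact Cfsg.Agent.Helper91.Co2InvKS.t0_mul_self
    rw [tt, ← map_pow, h2, map_one]
  · intro h
    have h1 : (⟨t0, t0_mem_co2Sub⟩ : ↥co2Sub) = 1 :=
      Co2Out.co2Equiv.injective (h.trans (map_one _).symm)
    exact t0_ne_one (congrArg Subtype.val h1)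

/-- the centraliser of the involution in `Spor.Co2` as a subgroup of `Co0` -/
noncomputable def iotaC : ↥(Subgroup.centralizer ({tt} : Set ↥Spor.Co2)) →* ↥CC where
  toFun x := ⟨⟨x.1.1, x.1.2.1⟩, mem_CC.2 ⟨x.1.2.2, by
    have h := (Subgroup.mem_centralizer_iff.1 x.2) tt rfl
    apply Subtype.ext
    exact (congrArg (fun y : ↥Spor.Co2 => (y : Equiv.Perm leechLattice)) h).symm⟩⟩
  map_one' := rfl
  map_mul' _ _ := rfl

theorem iotaC_val (x : ↥(Subgroup.centralizer ({tt} : Set ↥Spor.Co2))) :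
    (((iotaC x : ↥CC) : Co0) : Equiv.Perm leechLattice) = x.1.1 := rfl

theorem iotaC_injective : Function.Injective iotaC := by
  intro a b h
  apply Subtype.ext
  apply Subtype.ext
  have h1 := congrArg (fun y : ↥CC => ((y : Co0) : Equiv.Perm leechLattice)) h
  exact h1

theorem iotaC_surjective : Function.Surjective iotaC := by
  intro g
  have hg := mem_CC.1 g.2
  refine ⟨⟨⟨g.1.1, ⟨g.1.2, hg.1⟩⟩, ?_⟩, ?_⟩
  · rw [Subgroup.mem_centralizer_iff]
    intro h hh
    rw [Set.mem_singleton_iff.1 hh]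
    apply Subtype.ext
    exact (congrArg (fun y : Co0 => (y : Equiv.Perm leechLattice)) hg.2).symm
  · rfl

/-- the main theorem, for the involution `tt` -/
theorem main_tt : orderOf tt = 2 ∧
    Cfsg.IsExtraspecial 2 (Cfsg.pCore 2 ↥(Subgroup.centralizer ({tt} : Set ↥Spor.Co2))) ∧
    Nat.card (Cfsg.pCore 2 ↥(Subgroup.centralizer ({tt} : Set ↥Spor.Co2))) = 2 ^ 9 ∧
    Nonempty (↥(Subgroup.centralizer ({tt} : Set ↥Spor.Co2)) ⧸
      Cfsg.pCore 2 ↥(Subgroup.centralizer ({tt} : Set ↥Spor.Co2)) ≃*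
        Matrix.symplecticGroup (Fin 3) (ZMod 2)) := by
  refine ⟨orderOf_tt, ?_⟩
  haveI : Finite ↥(Subgroup.centralizer ({tt} : Set ↥Spor.Co2)) :=
    Finite.of_injective iotaC iotaC_injective
  have hcvinj : Function.Injective (CC.subtype.comp iotaC) := by
    intro a b h
    exact iotaC_injective (Subtype.ext h)
  refine assemble (rhoCC.comp iotaC) (rhoCC_surjective.comp iotaC_surjective)
    (CC.subtype.comp iotaC) hcvinj KS ⟨tt, Subgroup.mem_centralizer_iff.2 (fun h hh => by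
      rw [Set.mem_singleton_iff.1 hh])⟩ t0 ?_ ?_ ?_ t0_mem_KS t0_ne_one ?_
    Cfsg.Agent.Helper91.Co2InvKS.KS_ncard Cfsg.Agent.Helper91.Co2InvKS.KS_comm
    Cfsg.Agent.Helper91.Co2InvKS.KS_sq Cfsg.Agent.Helper91.Co2InvKS.KS_center
    Cfsg.Agent.Helper91.Co2InvKS.KS_nonab
  · intro x
    exact ker_iff (iotaC x)
  · intro k hk
    obtain ⟨x, hx⟩ := iotaC_surjective ⟨k, KS_mem_CC hk⟩
    exact ⟨x, congrArg Subtype.val hx⟩
  · apply Subtype.ext
    rfl
  · intro y
    apply Subtype.ext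
    exact (Subgroup.mem_centralizer_iff.1 y.2) tt rfl

end Cfsg.Agent.Helper92.Co2Inv
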