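import Cfsg.Agent.Helper92.Co3SMRelDef

/-!
# Relators of the chain certificate for Co3 hold in the Leech model (helper92, generated), part 0
-/

set_option autoImplicit false
set_option maxRecDepth 100000

namespace Cfsg.Agent.Helper92.Co3SM

theorem rP_4 : relOK [8, 8, 8, 8, 8, 8, 8, 8, 8, 8, 8, 8, 8, 8, 8, 8, 8, 8, 8, 8, 8, 8, 8] = true := by
  decide +kernel

theorem r5_5 : relOK [8, 2, 2, 5, 1, 9, 3, 1, 3, 5, 1, 6, 0, 4, 0, 0, 2, 5, 0, 0] = true := by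
  decide +kernel

theorem r5_10 : relOK [8, 7, 3, 6, 0, 9, 1, 4, 2, 5, 0, 7, 3, 5, 2, 4, 0, 4, 3, 0] = true := by
  decide +kernel

theorem r5_28 : relOK [8, 1, 2, 0, 9, 5, 8, 2, 6, 1, 7, 5, 7, 1, 5, 2, 5, 0, 0, 3] = true := by
  decide +kernel

theorem r4_15 : relOK [6, 1, 2, 7, 0, 3, 4, 1, 1, 7, 4, 2, 5, 0, 2, 0, 5, 1] = true := by
  decide +kernel

theorem r4_23 : relOK [6, 2, 1, 5, 1, 4, 7, 2, 1, 7, 4, 0, 2, 0, 4, 2, 4, 0] = true := by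
  decide +kernel

theorem r4_38 : relOK [6, 3, 4, 6, 6, 2, 2, 6, 6, 3, 3, 5, 3, 3, 4, 0, 3, 1] = true := by
  decide +kernel

theorem r5_16 : relOK [9, 3, 4, 9, 2, 9, 1, 3, 6, 5, 7, 4, 3, 1, 5, 1, 1, 5] = true := by
  decide +kernel

theorem r4_8 : relOK [7, 1, 4, 0, 0, 6, 5, 7, 1, 3, 4, 3, 5, 2, 4, 2, 1] = true := by
  decide +kernel

theorem r4_18 : relOK [6, 1, 5, 0, 4, 1, 4, 0, 7, 0, 0, 4, 2, 4, 1, 2, 1] = true := by
  decide +kernel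

theorem r4_30 : relOK [6, 2, 4, 7, 1, 2, 2, 4, 7, 5, 0, 4, 2, 5, 3, 3, 0] = true := by
  decide +kernel

theorem r4_37 : relOK [6, 3, 4, 6, 4, 6, 1, 5, 3, 7, 5, 0, 5, 3, 4, 1, 5] = true := by
  decide +kernel

theorem r5_3 : relOK [8, 0, 8, 0, 8, 7, 2, 2, 7, 5, 3, 5, 3, 3, 5, 3, 0] = true := by
  decide +kernel

theorem r4_6 : relOK [6, 5, 7, 2, 5, 6, 5, 7, 2, 1, 2, 2, 5, 2, 4, 0] = true := by
  decide +kernel

theorem r4_19 : relOK [6, 2, 0, 4, 1, 2, 6, 3, 7, 3, 5, 1, 3, 5, 1, 1] = true := by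
  decide +kernel

theorem r4_31 : relOK [6, 2, 5, 0, 4, 1, 5, 6, 6, 5, 0, 3, 1, 4, 3, 0] = true := by
  decide +kernel

theorem r4_17 : relOK [6, 1, 4, 3, 6, 5, 3, 5, 1, 7, 1, 2, 1, 5, 1] = true := by
  decide +kernel

theorem r4_1 : relOK [7, 0, 3, 6, 3, 7, 4, 1, 4, 2, 5, 1, 3, 3] = true := by
  decide +kernel

theorem r3_6 : relOK [0, 0, 5, 0, 4, 2, 0, 0, 5, 0, 4, 2] = true := by
  decide +kernel

theorem r4_46 : relOK [0, 5, 6, 4, 0, 5, 6, 4, 0, 5, 6, 4] = true := by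
  decide +kernel

theorem r4_45 : relOK [0, 2, 6, 1, 6, 1, 7, 2, 0, 3, 3] = true := by
  decide +kernel

theorem r3_0 : relOK [2, 5, 2, 5, 2, 5, 2, 5] = true := by
  decide +kernel

theorem rP_0 : relOK [0, 0, 0, 0, 0] = true := by
  decide +kernel

end Cfsg.Agent.Helper92.Co3SM
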