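import Cfsg.Agent.Helper92.Co3SMRelDef

/-!
# Relators of the chain certificate for Co3 hold in the Leech model (helper92, generated), part 2
-/

set_option autoImplicit false
set_option maxRecDepth 100000

namespace Cfsg.Agent.Helper92.Co3SM

theorem r5_23 : relOK [8, 0, 5, 2, 1, 5, 1, 9, 5, 7, 0, 4, 7, 3, 4, 1, 1, 4, 0, 4, 3, 1] = true := by
  decide +kernel

theorem r5_21 : relOK [8, 0, 5, 0, 7, 3, 8, 6, 5, 3, 7, 7, 5, 1, 3, 3, 1, 4, 2, 5, 1] = true := by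
  decide +kernel

theorem r5_8 : relOK [8, 5, 9, 9, 0, 9, 6, 5, 0, 3, 0, 7, 4, 1, 3, 4, 0, 4, 2, 4] = true := by
  decide +kernel

theorem r5_17 : relOK [8, 0, 2, 0, 2, 5, 9, 4, 2, 4, 6, 5, 7, 4, 2, 0, 4, 2, 4, 0] = true := by
  decide +kernel

theorem r5_2 : relOK [8, 0, 6, 6, 9, 7, 5, 6, 1, 5, 7, 4, 2, 1, 5, 1, 4, 1, 2] = true := by
  decide +kernel

theorem r4_33 : relOK [6, 2, 7, 4, 2, 6, 5, 0, 6, 1, 5, 3, 4, 2, 2, 5, 3, 1] = true := by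
  decide +kernel

theorem r5_7 : relOK [8, 5, 6, 1, 8, 1, 7, 2, 6, 3, 7, 5, 0, 3, 3, 4, 2, 0] = true := by
  decide +kernel

theorem r5_19 : relOK [8, 0, 4, 7, 0, 3, 1, 9, 1, 7, 5, 6, 1, 4, 2, 2, 4, 2] = true := by
  decide +kernel

theorem r4_11 : relOK [6, 0, 2, 2, 6, 0, 6, 5, 7, 0, 5, 1, 4, 3, 3, 5, 1] = true := by
  decide +kernel

theorem r4_24 : relOK [6, 2, 1, 5, 2, 0, 2, 5, 6, 5, 2, 1, 4, 2, 5, 1, 2] = true := by
  decide +kernel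

theorem r4_35 : relOK [6, 3, 1, 3, 7, 2, 0, 4, 6, 4, 1, 4, 1, 1, 2, 5, 0] = true := by
  decide +kernel

theorem r4_40 : relOK [6, 3, 7, 4, 2, 2, 0, 4, 0, 7, 3, 1, 4, 3, 3, 0, 4] = true := by
  decide +kernel

theorem r4_2 : relOK [6, 0, 4, 0, 4, 3, 1, 7, 5, 1, 3, 3, 5, 0, 3, 5] = true := by
  decide +kernel

theorem r4_13 : relOK [6, 0, 4, 1, 2, 4, 6, 4, 7, 0, 2, 2, 1, 5, 0, 4] = true := by
  decide +kernel

theorem r4_26 : relOK [6, 2, 2, 4, 3, 4, 1, 5, 6, 4, 3, 3, 0, 0, 4, 3] = true := by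
  decide +kernel

theorem r5_15 : relOK [9, 1, 3, 6, 8, 2, 1, 7, 3, 1, 4, 2, 1, 1, 3, 0] = true := by
  decide +kernel

theorem r5_12 : relOK [9, 0, 0, 6, 8, 0, 3, 5, 7, 3, 1, 3, 1, 5, 0] = true := by
  decide +kernel

theorem r3_3 : relOK [0, 0, 3, 0, 5, 3, 0, 5, 1, 4, 3, 5] = true := by
  decide +kernel

theorem r3_4 : relOK [0, 0, 4, 3, 4, 0, 2, 2, 5, 2, 2, 4] = true := by
  decide +kernel

theorem r3_8 : relOK [0, 4, 1, 2, 5, 3, 0, 4, 3, 5, 1, 5] = true := by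
  decide +kernel

theorem r3_1 : relOK [0, 0, 4, 0, 3, 4, 0, 5, 3, 4, 2] = true := by
  decide +kernel

theorem r5_30 : relOK [0, 9, 7, 8, 8, 1, 6, 6, 6] = true := by
  decide +kernel

theorem r4_42 : relOK [0, 0, 7, 1, 7, 1, 6] = true := by
  decide +kernel

theorem r5_29 : relOK [6, 8, 7, 9, 9] = true := by
  decide +kernel

end Cfsg.Agent.Helper92.Co3SM
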