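import Cfsg.Agent.Helper92.Co3SMAtoms
import Cfsg.Agent.Helper92.Co3SMChain
import Cfsg.Agent.Helper92.Co3SMRel0
import Cfsg.Agent.Helper92.Co3SMRel1
import Cfsg.Agent.Helper92.Co3SMRel2
import Cfsg.Agent.Helper92.Co3SMRel3
import Cfsg.Agent.Helper92.Co3Aut
import Cfsg.Agent.Helper89.Stem5

/-!
# The Schur multiplier of Co3: the primes other than 3 (helper92)

`two_part` (chain certificate of `Co3SMChain` along `5 < 5^(1+2) < U3(5) < McL < Co3`),
`five_part` (extraspecial Sylow 5-subgroup with an inverting involution), `big_part` (cyclic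
Sylow subgroups), all for stem extensions of `co3Sub`, the stabiliser of the vector `leechV` in
the automorphism group of the Leech lattice; and the transport `co3_mult_of_three` to
`Spor.Co3`, with the prime 3 as a hypothesis.
-/

set_option autoImplicit false
set_option maxRecDepth 100000

namespace Cfsg.Agent.Helper92.Co3SM

open Cfsg MulAction Cfsg.Agent.Helper92 Cfsg.Agent.Helper92.Mat Cfsg.Agent.Helper92.Co3Out
  Cfsg.Agent.Helper92.McLOut Cfsg.Agent.Helper86 Cfsg.Agent.Helper89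

/-- element `j` of the table, in `co3Sub` -/
noncomputable def gC (j : ℕ) : ↥co3Sub := ⟨smElt j, smElt_mem j⟩

/-- the product of a word of the table, in `co3Sub` -/
noncomputable def wC (w : List ℕ) : ↥co3Sub := ⟨wd smElt w, smWd_mem w⟩

theorem wC_nil : wC [] = 1 := rfl

theorem wC_cons (j : ℕ) (w : List ℕ) : wC (j :: w) = gC j * wC w := rfl

theorem wC_append (w w' : List ℕ) : wC (w ++ w') = wC w * wC w' :=
  Subtype.ext (wd_append smElt w w')

theorem wC_single (j : ℕ) : wC [j] = gC j := Subtype.ext (wd_single smElt j)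

theorem wC_eq {w w' : List ℕ} (h : wordEq smAct w w' = true) : wC w = wC w' :=
  Subtype.ext (wordEq_spec smTab h)

theorem wC_ne {w w' : List ℕ} (h : wordEq smAct w w' = false) : wC w ≠ wC w' :=
  fun he => wordNe_spec smTab h (congrArg Subtype.val he)

theorem wC_inv {w w' : List ℕ} (h : wordEq smAct (w ++ w') [] = true) : (wC w)⁻¹ = wC w' :=
  inv_eq_of_mul_eq_one_right (by rw [← wC_append, wC_eq h, wC_nil])

/-- the five generators of the chain -/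
noncomputable def lT : List ↥co3Sub := [gC 0, gC 2, gC 4, gC 6, gC 8]

theorem sm_inv : wordEq smAct ([0] ++ [1]) [] = true ∧ wordEq smAct ([2] ++ [3]) [] = true ∧
    wordEq smAct ([4] ++ [5]) [] = true ∧ wordEq smAct ([6] ++ [7]) [] = true ∧
    wordEq smAct ([8] ++ [9]) [] = true := by
  decide +kernel

theorem sm_gl_odd {G : Type*} [Group G] (l : List G) (i : ℕ) :
    gl l (2 * i + 1) = (l.getD i 1)⁻¹ := by
  unfold gl
  rw [if_neg (by omega)]
  congr 2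
  omega

theorem gl_eq (j : ℕ) (hj : j < 10) : gl lT j = gC j := by
  have h := sm_inv
  have e : ∀ i, (gC i)⁻¹ = (wC [i])⁻¹ := fun i => by rw [wC_single]
  obtain ⟨i, rfl | rfl⟩ : ∃ i, j = 2 * i ∨ j = 2 * i + 1 := ⟨j / 2, by omega⟩
  · rw [Chain.gl_two_mul]
    have hi : i < 5 := by omega
    interval_cases i <;> rfl
  · rw [sm_gl_odd]
    have hi : i < 5 := by omega
    interval_cases i
    · show (gC 0)⁻¹ = gC 1
      rw [e, wC_inv h.1, wC_single]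
    · show (gC 2)⁻¹ = gC 3
      rw [e, wC_inv h.2.1, wC_single]
    · show (gC 4)⁻¹ = gC 5
      rw [e, wC_inv h.2.2.1, wC_single]
    · show (gC 6)⁻¹ = gC 7
      rw [e, wC_inv h.2.2.2.1, wC_single]
    · show (gC 8)⁻¹ = gC 9
      rw [e, wC_inv h.2.2.2.2, wC_single]

theorem ev_eq (w : List ℕ) (hw : ∀ j ∈ w, j < 10) : Helper89.ev (gl lT) w = wC w := by
  induction w with
  | nil => rfl
  | cons j w ih =>
    show gl lT j * Helper89.ev (gl lT) w = wC (j :: w)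
    rw [wC_cons, gl_eq j (hw j List.mem_cons_self),
      ih (fun i hi => hw i (List.mem_cons_of_mem _ hi))]

theorem ev_one_of_relOK (w : List ℕ) (h : relOK w = true) : Helper89.ev (gl lT) w = 1 := by
  unfold relOK at h
  rw [Bool.and_eq_true, List.all_eq_true] at h
  rw [ev_eq w (fun j hj => Nat.blt_eq.mp (h.1 j hj)), wC_eq h.2, wC_nil]

theorem relsP : ∀ w ∈ Helper89.Chain.powW ps, relOK w = true :=
  List.forall_mem_cons.mpr ⟨rP_0, List.forall_mem_cons.mpr ⟨rP_1, List.forall_mem_cons.mpr ⟨rP_2, List.forall_mem_cons.mpr ⟨rP_3, List.forall_mem_cons.mpr ⟨rP_4, (fun _ h => absurd h List.not_mem_nil)⟩⟩⟩⟩⟩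

theorem rels2 : ∀ w ∈ L2.ws, relOK w = true :=
  List.forall_mem_cons.mpr ⟨r2_0, List.forall_mem_cons.mpr ⟨r2_1, (fun _ h => absurd h List.not_mem_nil)⟩⟩

theorem rels3 : ∀ w ∈ ws3, relOK w = true :=
  List.forall_mem_cons.mpr ⟨r3_0, List.forall_mem_cons.mpr ⟨r3_1, List.forall_mem_cons.mpr ⟨r3_2, List.forall_mem_cons.mpr ⟨r3_3, List.forall_mem_cons.mpr ⟨r3_4, List.forall_mem_cons.mpr ⟨r3_5, List.forall_mem_cons.mpr ⟨r3_6, List.forall_mem_cons.mpr ⟨r3_7, List.forall_mem_cons.mpr ⟨r3_8, List.forall_mem_cons.mpr ⟨r3_9, (fun _ h => absurd h List.not_mem_nil)⟩⟩⟩⟩⟩⟩⟩⟩⟩⟩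

theorem rels4 : ∀ w ∈ ws4, relOK w = true :=
  List.forall_mem_cons.mpr ⟨r4_0, List.forall_mem_cons.mpr ⟨r4_1, List.forall_mem_cons.mpr ⟨r4_2, List.forall_mem_cons.mpr ⟨r4_3, List.forall_mem_cons.mpr ⟨r4_4, List.forall_mem_cons.mpr ⟨r4_5, List.forall_mem_cons.mpr ⟨r4_6, List.forall_mem_cons.mpr ⟨r4_7, List.forall_mem_cons.mpr ⟨r4_8, List.forall_mem_cons.mpr ⟨r4_9, List.forall_mem_cons.mpr ⟨r4_10, List.forall_mem_cons.mpr ⟨r4_11, List.forall_mem_cons.mpr ⟨r4_12, List.forall_mem_cons.mpr ⟨r4_13, List.forall_mem_cons.mpr ⟨r4_14, List.forall_mem_cons.mpr ⟨r4_15, List.forall_mem_cons.mpr ⟨r4_16, List.forall_mem_cons.mpr ⟨r4_17, List.forall_mem_cons.mpr ⟨r4_18, List.forall_mem_cons.mpr ⟨r4_19, List.forall_mem_cons.mpr ⟨r4_20, List.forall_mem_cons.mpr ⟨r4_21, List.forall_mem_cons.mpr ⟨r4_22, List.forall_mem_cons.mpr ⟨r4_23, List.forall_mem_cons.mpr ⟨r4_24, List.forall_mem_cons.mpr ⟨r4_25, List.forall_mem_cons.mpr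 ⟨r4_26, List.forall_mem_cons.mpr ⟨r4_27, List.forall_mem_cons.mpr ⟨r4_28, List.forall_mem_cons.mpr ⟨r4_29, List.forall_mem_cons.mpr ⟨r4_30, List.forall_mem_cons.mpr ⟨r4_31, List.forall_mem_cons.mpr ⟨r4_32, List.forall_mem_cons.mpr ⟨r4_33, List.forall_mem_cons.mpr ⟨r4_34, List.forall_mem_cons.mpr ⟨r4_35, List.forall_mem_cons.mpr ⟨r4_36, List.forall_mem_cons.mpr ⟨r4_37, List.forall_mem_cons.mpr ⟨r4_38, List.forall_mem_cons.mpr ⟨r4_39, List.forall_mem_cons.mpr ⟨r4_40, List.forall_mem_cons.mpr ⟨r4_41, List.forall_mem_cons.mpr ⟨r4_42, List.forall_mem_cons.mpr ⟨r4_43, List.forall_mem_cons.mpr ⟨r4_44, List.forall_mem_cons.mpr ⟨r4_45, List.forall_mem_cons.mpr ⟨r4_46, (fun _ h => absurd h List.not_mem_nil)⟩⟩⟩⟩⟩⟩⟩⟩⟩⟩⟩⟩⟩⟩⟩⟩⟩⟩⟩⟩⟩⟩⟩⟩⟩⟩⟩⟩⟩⟩⟩⟩⟩⟩⟩⟩⟩⟩⟩⟩⟩⟩⟩⟩⟩⟩⟩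

theorem rels5 : ∀ w ∈ ws5, relOK w = true :=
  List.forall_mem_cons.mpr ⟨r5_0, List.forall_mem_cons.mpr ⟨r5_1, List.forall_mem_cons.mpr ⟨r5_2, List.forall_mem_cons.mpr ⟨r5_3, List.forall_mem_cons.mpr ⟨r5_4, List.forall_mem_cons.mpr ⟨r5_5, List.forall_mem_cons.mpr ⟨r5_6, List.forall_mem_cons.mpr ⟨r5_7, List.forall_mem_cons.mpr ⟨r5_8, List.forall_mem_cons.mpr ⟨r5_9, List.forall_mem_cons.mpr ⟨r5_10, List.forall_mem_cons.mpr ⟨r5_11, List.forall_mem_cons.mpr ⟨r5_12, List.forall_mem_cons.mpr ⟨r5_13, List.forall_mem_cons.mpr ⟨r5_14, List.forall_mem_cons.mpr ⟨r5_15, List.forall_mem_cons.mpr ⟨r5_16, List.forall_mem_cons.mpr ⟨r5_17, List.forall_mem_cons.mpr ⟨r5_18, List.forall_mem_cons.mpr ⟨r5_19, List.forall_mem_cons.mpr ⟨r5_20, List.forall_mem_cons.mpr ⟨r5_21, List.forall_mem_cons.mpr ⟨r5_22, List.forall_mem_cons.mpr ⟨r5_23, List.forall_mem_cons.mpr ⟨r5_24, List.forall_mem_cons.mpr ⟨r5_25, List.forall_mem_cons.mpr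 ⟨r5_26, List.forall_mem_cons.mpr ⟨r5_27, List.forall_mem_cons.mpr ⟨r5_28, List.forall_mem_cons.mpr ⟨r5_29, List.forall_mem_cons.mpr ⟨r5_30, (fun _ h => absurd h List.not_mem_nil)⟩⟩⟩⟩⟩⟩⟩⟩⟩⟩⟩⟩⟩⟩⟩⟩⟩⟩⟩⟩⟩⟩⟩⟩⟩⟩⟩⟩⟩⟩⟩

theorem hE : ∀ w ∈ Chain.powW ps, Helper89.ev (gl lT) w = 1 :=
  fun w hw => ev_one_of_relOK w (relsP w hw)

theorem hW : ∀ d ∈ Ls, ∀ w ∈ d.ws, Helper89.ev (gl lT) w = 1 := by
  intro d hd w hw
  simp only [Ls, List.mem_cons, List.not_mem_nil, or_false] at hd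
  rcases hd with rfl | rfl | rfl | rfl | rfl
  · exact absurd hw (by simp [L1])
  · exact ev_one_of_relOK w (rels2 w hw)
  · exact ev_one_of_relOK w (rels3 w hw)
  · exact ev_one_of_relOK w (rels4 w hw)
  · exact ev_one_of_relOK w (rels5 w hw)

/-- the word of the element `tE` in the ten symbols -/
def twT : List ℕ := [0, 5, 0, 3, 5, 3, 4, 3, 6, 0, 2, 7, 3, 6, 8, 1, 5, 9, 3, 9]

theorem twT_ok : wordEq smAct twT [14] = true ∧ twT.all (fun j => Nat.blt j 10) = true := by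
  decide +kernel

theorem sm_ev_mem {G : Type*} [Group G] (g : ℕ → G) (k : ℕ) (w : List ℕ)
    (hw : ∀ j ∈ w, j < k) : Helper89.ev g w ∈ Subgroup.closure (g '' Set.Iio k) := by
  induction w with
  | nil => exact Subgroup.one_mem _
  | cons j w ih =>
    exact Subgroup.mul_mem _ (Subgroup.subset_closure ⟨j, hw j List.mem_cons_self, rfl⟩)
      (ih fun i hi => hw i (List.mem_cons_of_mem _ hi))

theorem gen_top : Subgroup.closure (gl lT '' Set.Iio 10) = ⊤ := by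
  rw [eq_top_iff, ← closure_co3]
  apply (Subgroup.closure_le _).mpr
  rintro x (rfl | rfl | rfl)
  · have e : eA = gC 8 := Subtype.ext (by
      show pA = List.prod [pA]
      rw [List.prod_singleton])
    rw [SetLike.mem_coe, e, ← gl_eq 8 (by norm_num)]
    exact Subgroup.subset_closure ⟨8, by norm_num, rfl⟩
  · have e : eW = gC 0 := Subtype.ext (by
      show pW = List.prod [pW]
      rw [List.prod_singleton])
    rw [SetLike.mem_coe, e, ← gl_eq 0 (by norm_num)]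
    exact Subgroup.subset_closure ⟨0, by norm_num, rfl⟩
  · have e : eT = gC 14 := Subtype.ext (by
      show tE = List.prod [tE]
      rw [List.prod_singleton])
    have hw : ∀ j ∈ twT, j < 10 := fun j hj =>
      Nat.blt_eq.mp (List.all_eq_true.mp twT_ok.2 j hj)
    rw [SetLike.mem_coe, e, ← wC_single, ← wC_eq twT_ok.1, ← ev_eq twT hw]
    exact sm_ev_mem _ _ _ hw

/-- **The 2-part.** -/
theorem two_part (Γ : Type) [Group Γ] [Finite Γ] (σ : Γ →* ↥co3Sub)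
    (hs : Function.Surjective σ) (hc : σ.ker ≤ Subgroup.center Γ)
    (hd : σ.ker ≤ commutator Γ) : ¬ 2 ∣ Nat.card σ.ker :=
  Chain.two_universal lT ps Ls ps_odd valid chained (by rw [card_co3Sub, prodN_eq])
    (by rw [lastK_eq]; exact gen_top) hE hW Γ σ hs hc hd

theorem chk5 : wordEq smAct (((([0] ++ [0]) ++ [0]) ++ [0]) ++ [0]) [] = true ∧
    wordEq smAct (((([2, 12] ++ [2, 12]) ++ [2, 12]) ++ [2, 12]) ++ [2, 12]) [] = true ∧
    wordEq smAct ([0] ++ [2, 12]) ([2, 12] ++ [0]) = false ∧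
    wordEq smAct ([0] ++ [1]) [] = true ∧ wordEq smAct ([2, 12] ++ [13, 3]) [] = true ∧
    wordEq smAct ([10, 10] ++ [11, 11]) [] = true ∧
    wordEq smAct (((([0] ++ [2, 12]) ++ [1]) ++ [13, 3]) ++ [0])
      ([0] ++ ((([0] ++ [2, 12]) ++ [1]) ++ [13, 3])) = true ∧
    wordEq smAct (((([0] ++ [2, 12]) ++ [1]) ++ [13, 3]) ++ [2, 12])
      ([2, 12] ++ ((([0] ++ [2, 12]) ++ [1]) ++ [13, 3])) = true ∧
    wordEq smAct (([10, 10] ++ [0]) ++ [11, 11]) [1] = true ∧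
    wordEq smAct (([10, 10] ++ [2, 12]) ++ [11, 11]) [13, 3] = true := by
  decide +kernel

/-- **The 5-part.** -/
theorem five_part (Γ : Type) [Group Γ] [Finite Γ] (σ : Γ →* ↥co3Sub)
    (hs : Function.Surjective σ) (hc : σ.ker ≤ Subgroup.center Γ)
    (hd : σ.ker ≤ commutator Γ) : ¬ 5 ∣ Nat.card σ.ker := by
  have h := chk5
  have hai : (wC [0])⁻¹ = wC [1] := wC_inv h.2.2.2.1
  have hbi : (wC [2, 12])⁻¹ = wC [13, 3] := wC_inv h.2.2.2.2.1
  have hni : (wC [10, 10])⁻¹ = wC [11, 11] := wC_inv h.2.2.2.2.2.1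
  refine Stem.not_dvd_card_ker_of_extraspecial5 σ hs hc hd (wC [0]) (wC [2, 12]) (wC [10, 10])
    ?_ ?_ ?_ ?_ ?_ ?_ ?_ (by rw [card_co3Sub]; norm_num)
  · rw [pow_succ, pow_succ, pow_succ, pow_two, ← wC_append, ← wC_append, ← wC_append,
      ← wC_append, wC_eq h.1, wC_nil]
  · rw [pow_succ, pow_succ, pow_succ, pow_two, ← wC_append, ← wC_append, ← wC_append,
      ← wC_append, wC_eq h.2.1, wC_nil]
  · rw [← wC_append, ← wC_append]
    exact wC_ne h.2.2.1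
  · rw [hai, hbi]
    simp only [← wC_append]
    exact wC_eq h.2.2.2.2.2.2.1
  · rw [hai, hbi]
    simp only [← wC_append]
    exact wC_eq h.2.2.2.2.2.2.2.1
  · rw [hai, hni]
    simp only [← wC_append]
    exact wC_eq h.2.2.2.2.2.2.2.2.1
  · rw [hbi, hni]
    simp only [← wC_append]
    exact wC_eq h.2.2.2.2.2.2.2.2.2

/-- **The primes at least 7.** -/
theorem big_part (Γ : Type) [Group Γ] [Finite Γ] (σ : Γ →* ↥co3Sub)
    (hc : σ.ker ≤ Subgroup.center Γ) (hd : σ.ker ≤ commutator Γ) (p : ℕ) (hp : p.Prime)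
    (h2 : p ≠ 2) (h3 : p ≠ 3) (h5 : p ≠ 5) : ¬ p ∣ Nat.card σ.ker := by
  have hpf : Fact p.Prime := ⟨hp⟩
  refine Stem.not_dvd_card_ker_of_sq σ hc hd p ?_
  rw [card_co3Sub]
  intro hdvd
  have hN : (495766656000 : ℕ) = 2 ^ 10 * 3 ^ 7 * 5 ^ 3 * 7 * 11 * 23 := by norm_num
  have hp1 : p ∣ 2 ^ 10 * 3 ^ 7 * 5 ^ 3 * 7 * 11 * 23 := by
    rw [← hN]
    exact dvd_trans (dvd_pow_self p (by norm_num)) hdvd
  rcases (Nat.Prime.dvd_mul hp).mp hp1 with hp2 | hp23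
  · rcases (Nat.Prime.dvd_mul hp).mp hp2 with hp3 | hp11
    · rcases (Nat.Prime.dvd_mul hp).mp hp3 with hp4 | hp7
      · rcases (Nat.Prime.dvd_mul hp).mp hp4 with hp5 | hp5'
        · rcases (Nat.Prime.dvd_mul hp).mp hp5 with hp6 | hp3'
          · exact h2 ((Nat.prime_dvd_prime_iff_eq hp Nat.prime_two).mp (hp.dvd_of_dvd_pow hp6))
          · exact h3 ((Nat.prime_dvd_prime_iff_eq hp Nat.prime_three).mp
              (hp.dvd_of_dvd_pow hp3'))
        · exact h5 ((Nat.prime_dvd_prime_iff_eq hp Nat.prime_five).mp (hp.dvd_of_dvd_pow hp5'))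
      · have h7 : p = 7 := (Nat.prime_dvd_prime_iff_eq hp (by norm_num)).mp hp7
        rw [h7] at hdvd
        norm_num at hdvd
    · have h11 : p = 11 := (Nat.prime_dvd_prime_iff_eq hp (by norm_num)).mp hp11
      rw [h11] at hdvd
      norm_num at hdvd
  · have h23 : p = 23 := (Nat.prime_dvd_prime_iff_eq hp (by norm_num)).mp hp23
    rw [h23] at hdvd
    norm_num at hdvd

/-- The Schur multiplier of `Co3` is trivial, given the 3-part for `co3Sub`. -/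
theorem co3_mult_of_three
    (H3 : ∀ (Γ : Type) [Group Γ] [Finite Γ] (σ : Γ →* ↥co3Sub), Function.Surjective σ →
      σ.ker ≤ Subgroup.center Γ → σ.ker ≤ commutator Γ → ¬ 3 ∣ Nat.card σ.ker) :
    Cfsg.HasCyclicSchurMultiplier ↥Cfsg.Spor.Co3 1 := by
  have hfin : Finite ↥Cfsg.Spor.Co3 := Finite.of_equiv _ co3Equiv.toEquiv
  apply Stem.hasCyclicSchurMultiplier_one
  intro Γ _ _ σ hσ
  obtain ⟨hsurj, hc, hd⟩ := hσ
  have hk : ((co3Equiv.symm : ↥Cfsg.Spor.Co3 →* ↥co3Sub).comp σ).ker = σ.ker :=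
    MonoidHom.ker_mulEquiv_comp σ co3Equiv.symm
  have hs' : Function.Surjective ((co3Equiv.symm : ↥Cfsg.Spor.Co3 →* ↥co3Sub).comp σ) :=
    co3Equiv.symm.surjective.comp hsurj
  rw [← hk]
  apply Stem.ker_eq_bot_of_primes
  intro p hp
  by_cases h2 : p = 2
  · subst h2
    exact two_part Γ _ hs' (by rw [hk]; exact hc) (by rw [hk]; exact hd)
  by_cases h3 : p = 3
  · subst h3
    exact H3 Γ _ hs' (by rw [hk]; exact hc) (by rw [hk]; exact hd)
  by_cases h5 : p = 5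
  · subst h5
    exact five_part Γ _ hs' (by rw [hk]; exact hc) (by rw [hk]; exact hd)
  · exact big_part Γ _ (by rw [hk]; exact hc) (by rw [hk]; exact hd) p hp h2 h3 h5

end Cfsg.Agent.Helper92.Co3SM
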