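import Cfsg.Agent.Helper92.Co3SM3Chk
import Cfsg.Agent.Helper92.Co3SM2
import Cfsg.Agent.Helper7.PRestrict
import Cfsg.Agent.Helper89.CoxP
import Cfsg.Agent.Helper78.Co3P3Abel
import Cfsg.Agent.Helper37.Co3P3Split
import Cfsg.Agent.Helper11.Co3P3Count

/-!
# The Schur multiplier of Co3: the prime 3 (helper92)

The subgroup `S₀ = 3^5 : (2 × M11)` of `co3Sub` generated by the table `s3` contains a Sylow
3-subgroup; a central extension of `S₀` with kernel of exponent 3 inside the commutator subgroup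
is trivial (pieces `p3_abel` of helper78, `p3_split` of helper37, `p3_count` of helper11), and
`Helper7.p_restrict`, `Helper89.Stem.p_not_dvd_card_ker` give the 3-part for `co3Sub`.
-/

set_option autoImplicit false
set_option maxRecDepth 100000

namespace Cfsg.Agent.Helper92.Co3SM

open Cfsg MulAction Cfsg.Agent.Helper92 Cfsg.Agent.Helper92.Mat Cfsg.Agent.Helper86
  Cfsg.Agent.Helper89
open Cfsg.Agent.Helper7 (idx pt)

/-- element `j` of the table `s3`, in `co3Sub` -/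
noncomputable def gD (j : ℕ) : ↥co3Sub := ⟨s3Elt j, s3Elt_mem j⟩

/-- the product of a word of the table `s3`, in `co3Sub` -/
noncomputable def wD (w : List ℕ) : ↥co3Sub := ⟨wd s3Elt w, s3Wd_mem w⟩

/-- the subgroup `3^5 : (2 × M11)` -/
noncomputable def S₀ : Subgroup ↥co3Sub := Subgroup.closure (Set.range gD)

theorem wD_mem : ∀ w : List ℕ, wD w ∈ S₀
  | [] => Subgroup.one_mem _
  | j :: w => by
    show gD j * wD w ∈ S₀
    exact Subgroup.mul_mem _ (Subgroup.subset_closure ⟨j, rfl⟩) (wD_mem w)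

/-- the product of a word, in `S₀` -/
noncomputable def wS (w : List ℕ) : ↥S₀ := ⟨wD w, wD_mem w⟩

theorem wS_nil : wS [] = 1 := rfl

theorem wS_mul (w w' : List ℕ) : wS w * wS w' = wS (w ++ w') :=
  Subtype.ext (Subtype.ext (wd_append s3Elt w w').symm)

theorem wS_eq {w w' : List ℕ} (h : wordEq s3Act w w' = true) : wS w = wS w' :=
  Subtype.ext (Subtype.ext (wordEq_spec s3Tab h))

theorem wS_ne {w w' : List ℕ} (h : wordEq s3Act w w' = false) : wS w ≠ wS w' :=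
  fun he => wordNe_spec s3Tab h (congrArg (fun x : ↥S₀ => ((x : ↥co3Sub) : Co0)) he)

theorem wS_inv {w w' : List ℕ} (h : wordEq s3Act (w ++ w') [] = true) : (wS w)⁻¹ = wS w' :=
  inv_eq_of_mul_eq_one_right (by rw [wS_mul, wS_eq h, wS_nil])

theorem S_ind {p : ↥S₀ → Prop} (hgen : ∀ j, j < 15 → p (wS [j])) (h1 : p 1)
    (hmul : ∀ x y, p x → p y → p (x * y)) (hinv : ∀ x, p x → p x⁻¹) (x : ↥S₀) : p x := by
  have hx : x ∈ Subgroup.closure ((Subtype.val : ↥S₀ → ↥co3Sub) ⁻¹' (Set.range gD)) := by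
    have h := Subgroup.closure_closure_coe_preimage (k := Set.range gD)
    exact (show Subgroup.closure ((Subtype.val : ↥S₀ → ↥co3Sub) ⁻¹' (Set.range gD)) = ⊤
      from h) ▸ Subgroup.mem_top x
  induction hx using Subgroup.closure_induction with
  | mem y hy =>
    obtain ⟨j, hj⟩ := hy
    by_cases h : j < 15
    · have e : y = wS [j] :=
        Subtype.ext (Subtype.ext (by rw [← hj]; exact (wd_single s3Elt j).symm))
      rw [e]
      exact hgen j h
    · have e : y = 1 := Subtype.ext (Subtype.ext (by rw [← hj]; exact s3Elt_big h))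
      rw [e]
      exact h1
  | one => exact h1
  | mul y z _ _ hy hz => exact hmul y z hy hz
  | inv y _ hy => exact hinv y hy

/-- the elementary abelian subgroup of order `3^5` -/
noncomputable def V₀ : Subgroup ↥S₀ :=
  Subgroup.closure ({wS [0], wS [1], wS [2], wS [3], wS [4]} : Set ↥S₀)

theorem mem_vset {x : ↥S₀}
    (hx : x ∈ ({wS [0], wS [1], wS [2], wS [3], wS [4]} : Set ↥S₀)) :
    ∃ i, i < 5 ∧ x = wS [i] := by
  simp only [Set.mem_insert_iff, Set.mem_singleton_iff] at hx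
  rcases hx with h | h | h | h | h
  exacts [⟨0, by norm_num, h⟩, ⟨1, by norm_num, h⟩, ⟨2, by norm_num, h⟩, ⟨3, by norm_num, h⟩,
    ⟨4, by norm_num, h⟩]

theorem vset_mem (i : ℕ) (hi : i < 5) :
    wS [i] ∈ ({wS [0], wS [1], wS [2], wS [3], wS [4]} : Set ↥S₀) := by
  interval_cases i <;> simp

theorem wS_mem_V (w : List ℕ) (hw : ∀ l ∈ w, l < 5) : wS w ∈ V₀ := by
  induction w with
  | nil => exact Subgroup.one_mem _
  | cons l w ih =>
    have e : wS (l :: w) = wS [l] * wS w := (wS_mul [l] w).symm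
    rw [e]
    exact Subgroup.mul_mem _ (Subgroup.subset_closure (vset_mem l (hw l List.mem_cons_self)))
      (ih fun i hi => hw i (List.mem_cons_of_mem _ hi))

/-! ### Unpacking the checks -/

theorem chk_inv (j : ℕ) (hj : j < 15) : wordEq s3Act ([j] ++ invL.getD j []) [] = true := by
  have h := chkJ_all j hj
  unfold chkJ at h
  simp only [Bool.and_eq_true] at h
  exact h.1.1.1

theorem chk_inv' (j : ℕ) (hj : j < 15) : wordEq s3Act (invL.getD j [] ++ [j]) [] = true := by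
  have h := chkJ_all j hj
  unfold chkJ at h
  simp only [Bool.and_eq_true] at h
  exact h.1.1.2

theorem chk_z (j : ℕ) (hj : j < 15) (h5 : ¬ j < 5) : wordEq s3Act [j, 7] [7, j] = true := by
  have h := chkJ_all j hj
  unfold chkJ at h
  simp only [Bool.and_eq_true, Bool.or_eq_true] at h
  rcases h.1.2 with h' | h'
  · exact absurd (Nat.blt_eq.mp h') h5
  · exact h'

theorem chk_cw (j i : ℕ) (hj : j < 15) (hi : i < 5) :
    wordEq s3Act ([j] ++ [i] ++ invL.getD j []) ((cwL.getD j []).getD i []) = true ∧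
    wordEq s3Act (invL.getD j [] ++ [i] ++ [j]) ((cwL'.getD j []).getD i []) = true ∧
    (∀ l ∈ (cwL.getD j []).getD i [], l < 5) ∧ (∀ l ∈ (cwL'.getD j []).getD i [], l < 5) := by
  have h := chkJ_all j hj
  unfold chkJ at h
  simp only [Bool.and_eq_true] at h
  have h2 := (allTo_iff _ _).1 h.2 i hi
  unfold chkJI at h2
  simp only [Bool.and_eq_true, List.all_eq_true] at h2
  exact ⟨h2.1.1.1, h2.1.1.2, fun l hl => Nat.blt_eq.mp (h2.1.2 l hl),
    fun l hl => Nat.blt_eq.mp (h2.2 l hl)⟩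

theorem chkV3_i (i : ℕ) (hi : i < 5) : wordEq s3Act ([i] ++ [i, i]) [] = true :=
  (allTo_iff _ _).1 chkV3 i hi

theorem chkZ_i (i : ℕ) (hi : i < 5) : wordEq s3Act (([7] ++ [i]) ++ [7]) [i, i] = true :=
  (allTo_iff _ _).1 chkZ i hi

theorem chkComm_ij (i j : ℕ) (hi : i < 5) (hj : j < 5) :
    wordEq s3Act ([i] ++ [j]) ([j] ++ [i]) = true :=
  (allTo_iff _ _).1 ((allTo_iff _ _).1 chkComm i hi) j hj

/-! ### The structure of `S₀` -/

theorem v_inv (i : ℕ) (hi : i < 5) : (wS [i])⁻¹ = wS [i, i] := wS_inv (chkV3_i i hi)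

theorem v_cube (i : ℕ) (hi : i < 5) : wS [i] ^ 3 = 1 := by
  have e : wS [i] ^ 3 = wS ([i] ++ [i, i]) := by
    rw [pow_succ, pow_two, mul_assoc, wS_mul [i] [i], wS_mul]
    rfl
  rw [e, wS_eq (chkV3_i i hi), wS_nil]

theorem v_comm : ∀ a ∈ ({wS [0], wS [1], wS [2], wS [3], wS [4]} : Set ↥S₀),
    ∀ b ∈ ({wS [0], wS [1], wS [2], wS [3], wS [4]} : Set ↥S₀), a * b = b * a := by
  intro a ha b hb
  obtain ⟨i, hi, rfl⟩ := mem_vset ha
  obtain ⟨j, hj, rfl⟩ := mem_vset hb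
  rw [wS_mul, wS_mul]
  exact wS_eq (chkComm_ij i j hi hj)

theorem z_sq : wS [7] * wS [7] = 1 := by
  rw [wS_mul]
  exact (wS_eq (chk_inv 7 (by norm_num))).trans wS_nil

theorem z_inv : (wS [7])⁻¹ = wS [7] := wS_inv (chk_inv 7 (by norm_num))

theorem closure_props {G : Type*} [Group G] (s : Set G) (z : G)
    (hc : ∀ a ∈ s, ∀ b ∈ s, a * b = b * a) (h3 : ∀ a ∈ s, a ^ 3 = 1)
    (hz : ∀ a ∈ s, z * a * z⁻¹ = a⁻¹) :
    ∀ v ∈ Subgroup.closure s, v ^ 3 = 1 ∧ z * v * z⁻¹ = v⁻¹ := by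
  have hcc := Stem.closure_comm hc
  intro v hv
  induction hv using Subgroup.closure_induction with
  | mem a ha => exact ⟨h3 a ha, hz a ha⟩
  | one => exact ⟨one_pow 3, by rw [mul_one, mul_inv_cancel, inv_one]⟩
  | mul x y hx hy ihx ihy =>
    refine ⟨?_, ?_⟩
    · rw [Commute.mul_pow (hcc x hx y hy) 3, ihx.1, ihy.1, one_mul]
    · have e : z * (x * y) * z⁻¹ = (z * x * z⁻¹) * (z * y * z⁻¹) := by group
      rw [e, ihx.2, ihy.2, ← mul_inv_rev, hcc y hy x hx]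
  | inv x hx ih =>
    refine ⟨?_, ?_⟩
    · rw [inv_pow, ih.1, inv_one]
    · have e : z * x⁻¹ * z⁻¹ = (z * x * z⁻¹)⁻¹ := by group
      rw [e, ih.2]

theorem V_props : ∀ v ∈ V₀, v ^ 3 = 1 ∧ wS [7] * v * (wS [7])⁻¹ = v⁻¹ := by
  refine closure_props _ _ v_comm ?_ ?_
  · intro a ha
    obtain ⟨i, hi, rfl⟩ := mem_vset ha
    exact v_cube i hi
  · intro a ha
    obtain ⟨i, hi, rfl⟩ := mem_vset ha
    rw [z_inv, v_inv i hi, wS_mul, wS_mul]
    exact wS_eq (chkZ_i i hi)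

theorem conj_closure {G : Type*} [Group G] (s : Set G) (K : Subgroup G) (g : G)
    (h : ∀ x ∈ s, g * x * g⁻¹ ∈ K) : ∀ n ∈ Subgroup.closure s, g * n * g⁻¹ ∈ K := by
  intro n hn
  induction hn using Subgroup.closure_induction with
  | mem x hx => exact h x hx
  | one =>
    rw [mul_one, mul_inv_cancel]
    exact K.one_mem
  | mul x y _ _ hx hy =>
    have e : g * (x * y) * g⁻¹ = (g * x * g⁻¹) * (g * y * g⁻¹) := by group
    rw [e]
    exact K.mul_mem hx hy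
  | inv x _ hx =>
    have e : g * x⁻¹ * g⁻¹ = (g * x * g⁻¹)⁻¹ := by group
    rw [e]
    exact K.inv_mem hx

theorem gen_conj (j : ℕ) (hj : j < 15) :
    ∀ n ∈ V₀, wS [j] * n * (wS [j])⁻¹ ∈ V₀ ∧ (wS [j])⁻¹ * n * wS [j] ∈ V₀ := by
  have hi1 : (wS [j])⁻¹ = wS (invL.getD j []) := wS_inv (chk_inv j hj)
  have hi2 : (wS (invL.getD j []))⁻¹ = wS [j] := wS_inv (chk_inv' j hj)
  intro n hn
  refine ⟨?_, ?_⟩
  · refine conj_closure _ V₀ (wS [j]) ?_ n hn
    intro x hx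
    obtain ⟨i, hi, rfl⟩ := mem_vset hx
    have h := chk_cw j i hj hi
    rw [hi1, wS_mul, wS_mul, wS_eq h.1]
    exact wS_mem_V _ h.2.2.1
  · have h2 : (wS (invL.getD j [])) * n * (wS (invL.getD j []))⁻¹ ∈ V₀ := by
      refine conj_closure _ V₀ (wS (invL.getD j [])) ?_ n hn
      intro x hx
      obtain ⟨i, hi, rfl⟩ := mem_vset hx
      have h := chk_cw j i hj hi
      rw [hi2, wS_mul, wS_mul, wS_eq h.2.1]
      exact wS_mem_V _ h.2.2.2
    rw [hi2] at h2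
    rw [hi1]
    exact h2

theorem conj_mem (g : ↥S₀) : ∀ n ∈ V₀, g * n * g⁻¹ ∈ V₀ ∧ g⁻¹ * n * g ∈ V₀ := by
  refine S_ind (p := fun g => ∀ n ∈ V₀, g * n * g⁻¹ ∈ V₀ ∧ g⁻¹ * n * g ∈ V₀) gen_conj ?_ ?_ ?_ g
  · intro n hn
    rw [inv_one, mul_one, one_mul]
    exact ⟨hn, hn⟩
  · intro x y hx hy n hn
    have e1 : x * y * n * (x * y)⁻¹ = x * (y * n * y⁻¹) * x⁻¹ := by group
    have e2 : (x * y)⁻¹ * n * (x * y) = y⁻¹ * (x⁻¹ * n * x) * y := by group
    rw [e1, e2]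
    exact ⟨(hx _ (hy n hn).1).1, (hy _ (hx n hn).2).2⟩
  · intro x hx n hn
    rw [inv_inv]
    exact ⟨(hx n hn).2, (hx n hn).1⟩

theorem V_normal : V₀.Normal := ⟨fun n hn g => (conj_mem g n hn).1⟩

theorem decomp (s : ↥S₀) : ∃ v ∈ V₀, ∃ c : ↥S₀, c * wS [7] = wS [7] * c ∧ s = v * c := by
  refine S_ind (p := fun s => ∃ v ∈ V₀, ∃ c : ↥S₀, c * wS [7] = wS [7] * c ∧ s = v * c)
    ?_ ?_ ?_ ?_ s
  · intro j hj
    by_cases h5 : j < 5
    · refine ⟨wS [j], wS_mem_V [j] ?_, 1, by rw [one_mul, mul_one], (mul_one _).symm⟩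
      intro l hl
      rw [List.mem_singleton] at hl
      omega
    · refine ⟨1, Subgroup.one_mem _, wS [j], ?_, (one_mul _).symm⟩
      rw [wS_mul, wS_mul]
      exact wS_eq (chk_z j hj h5)
  · exact ⟨1, Subgroup.one_mem _, 1, by rw [one_mul, mul_one], (mul_one _).symm⟩
  · rintro x y ⟨v, hv, c, hc, rfl⟩ ⟨v', hv', c', hc', rfl⟩
    refine ⟨v * (c * v' * c⁻¹), Subgroup.mul_mem _ hv (conj_mem c v' hv').1, c * c', ?_,
      by group⟩
    rw [mul_assoc, hc', ← mul_assoc, hc, mul_assoc]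
  · rintro x ⟨v, hv, c, hc, rfl⟩
    refine ⟨c⁻¹ * v⁻¹ * c, (conj_mem c v⁻¹ (Subgroup.inv_mem _ hv)).2, c⁻¹, ?_, by group⟩
    have e : c⁻¹ * wS [7] = c⁻¹ * (wS [7] * c) * c⁻¹ := by group
    rw [e, ← hc]
    group

/-! ### Counting -/

theorem card_V_gt : 81 < Nat.card V₀ := by
  classical
  have hf : ∀ w : List ℕ, acts s3Act w (mcB8 0) =
      mcCode (wd s3Elt w • P (pt 0) (pt 0)) := by
    intro w
    have h1 := acts_spec s3Tab w (P (pt 0) (pt 0)) (sqNorm_P _)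
    rw [mcB8_spec, Cfsg.Agent.Helper7.idx_pt (by norm_num : 0 < 24)] at h1
    exact h1
  have hnd : (vWords.map wS).Nodup := by
    have h := vCodes_nodup
    unfold vCodes at h
    have e : vWords.map (fun w => acts s3Act w (mcB8 0)) =
        (vWords.map wS).map
          (fun g : ↥S₀ => mcCode (((g : ↥co3Sub) : Co0) • P (pt 0) (pt 0))) := by
      rw [List.map_map]
      apply List.map_congr_left
      intro w _
      exact hf w
    rw [e] at h
    exact List.Nodup.of_map _ h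
  have hsub : ∀ x ∈ vWords.map wS, x ∈ V₀ := by
    intro x hx
    obtain ⟨w, hw, rfl⟩ := List.mem_map.mp hx
    exact wS_mem_V w (fun l hl =>
      Nat.blt_eq.mp (List.all_eq_true.mp (List.all_eq_true.mp vWords_lt w hw) l hl))
  have h1 : ((vWords.map wS).toFinset : Set ↥S₀) ⊆ (V₀ : Set ↥S₀) :=
    fun x hx => hsub x (List.mem_toFinset.mp (Finset.mem_coe.mp hx))
  have h2 := Set.ncard_le_ncard h1 (Set.toFinite _)
  rw [Set.ncard_coe_finset, List.toFinset_card_of_nodup hnd, List.length_map,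
    vWords_length] at h2
  have h3 : Nat.card V₀ = (V₀ : Set ↥S₀).ncard := Nat.card_coe_set_eq _
  omega

/-! ### The elements `a`, `b`, `t` -/

theorem a_inv : (wS [12])⁻¹ = wS [12, 12] := wS_inv (chk_inv 12 (by norm_num))

theorem t_inv : (wS [14])⁻¹ = wS [14] := wS_inv (chk_inv 14 (by norm_num))

theorem k_inv : (wS [5])⁻¹ = wS [6] := wS_inv (chk_inv 5 (by norm_num))

theorem a_cube : wS [12] ^ 3 = 1 := by
  rw [pow_succ, pow_two, wS_mul, wS_mul]
  exact (wS_eq chkA.1).trans wS_nil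

theorem b_cube : wS [13] ^ 3 = 1 := by
  rw [pow_succ, pow_two, wS_mul, wS_mul]
  exact (wS_eq chkA.2.1).trans wS_nil

theorem a_ne : wS [12] ≠ 1 := wS_ne chkA.2.2.1

theorem b_not_mem : wS [13] ∉ Subgroup.zpowers (wS [12]) := by
  intro hmem
  obtain ⟨n, hn⟩ := Subgroup.mem_zpowers_iff.mp hmem
  rw [zpow_eq_zpow_emod' n a_cube] at hn
  have h0 : 0 ≤ n % ((3 : ℕ) : ℤ) := Int.emod_nonneg n (by norm_num)
  have h3 : n % ((3 : ℕ) : ℤ) < 3 := Int.emod_lt_of_pos n (by norm_num)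
  obtain ⟨r, hr⟩ : ∃ r : ℕ, n % ((3 : ℕ) : ℤ) = (r : ℤ) := ⟨(n % ((3 : ℕ) : ℤ)).toNat, by omega⟩
  rw [hr, zpow_natCast] at hn
  have hr3 : r < 3 := by omega
  interval_cases r
  · rw [pow_zero] at hn
    exact wS_ne chkA.2.2.2.1 hn.symm
  · rw [pow_one] at hn
    exact wS_ne chkA.2.2.2.2.1 hn.symm
  · rw [pow_two, wS_mul] at hn
    exact wS_ne chkA.2.2.2.2.2.1 hn.symm

theorem ab_comm : wS [12] * wS [13] = wS [13] * wS [12] := by
  rw [wS_mul, wS_mul]
  exact wS_eq chkA.2.2.2.2.2.2.1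

theorem t_a : wS [14] * wS [12] * (wS [14])⁻¹ = (wS [12])⁻¹ := by
  rw [t_inv, a_inv, wS_mul, wS_mul]
  exact wS_eq chkA.2.2.2.2.2.2.2.1

theorem t_b : wS [14] * wS [13] * (wS [14])⁻¹ = wS [13] := by
  rw [t_inv, wS_mul, wS_mul]
  exact wS_eq chkA.2.2.2.2.2.2.2.2

theorem a_z : wS [12] * wS [7] = wS [7] * wS [12] := by
  rw [wS_mul, wS_mul]
  exact wS_eq (chk_z 12 (by norm_num) (by norm_num))

theorem b_z : wS [13] * wS [7] = wS [7] * wS [13] := by
  rw [wS_mul, wS_mul]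
  exact wS_eq (chk_z 13 (by norm_num) (by norm_num))

theorem count_S : 3 ^ 5 ∣ Nat.card V₀ ∧ 3 ^ 7 ∣ Nat.card ↥S₀ := by
  haveI := V_normal
  exact Cfsg.Agent.Helper11.p3_count V₀ (wS [7]) (wS [12]) (wS [13])
    (fun v hv => (V_props v hv).1) (fun v hv => (V_props v hv).2) card_V_gt a_cube b_cube a_ne
    b_not_mem ab_comm a_z b_z

theorem index_S : ¬ 3 ∣ S₀.index := by
  intro h
  have h1 := mul_dvd_mul count_S.2 h
  rw [Subgroup.card_mul_index, card_co3Sub] at h1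
  norm_num at h1

theorem card_S : ¬ 3 ^ 3 * Nat.card V₀ ∣ Nat.card ↥S₀ := by
  intro h
  have h1 : 3 ^ 3 * 3 ^ 5 ∣ Nat.card ↥S₀ := dvd_trans (mul_dvd_mul_left _ count_S.1) h
  have h2 := dvd_trans h1 (Subgroup.card_subgroup_dvd_card S₀)
  rw [card_co3Sub] at h2
  norm_num at h2

/-- **The 3-part.** -/
theorem three_part (Γ : Type) [Group Γ] [Finite Γ] (σ : Γ →* ↥co3Sub)
    (hs : Function.Surjective σ) (hc : σ.ker ≤ Subgroup.center Γ)
    (hd : σ.ker ≤ commutator Γ) : ¬ 3 ∣ Nat.card σ.ker := by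
  refine Stem.p_not_dvd_card_ker 3 Nat.prime_three σ hs hc hd
    (Cfsg.Agent.Helper7.p_restrict 3 Nat.prime_three S₀ index_S ?_)
  intro Y _ _ τ hτ hker hdY
  haveI := V_normal
  have hk : ∀ i, i < 4 → wS [5] * wS [i] * (wS [5])⁻¹ = wS [i + 1] := by
    intro i hi
    rw [k_inv, wS_mul, wS_mul]
    have h := chkK
    interval_cases i
    · exact wS_eq h.1
    · exact wS_eq h.2.1
    · exact wS_eq h.2.2.1
    · exact wS_eq h.2.2.2.1
  have hk5 : wS [5] * wS [4] * (wS [5])⁻¹ = wS [0] * wS [1] * (wS [2])⁻¹ * wS [3] := by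
    rw [k_inv, v_inv 2 (by norm_num), wS_mul, wS_mul, wS_mul, wS_mul, wS_mul]
    exact wS_eq chkK.2.2.2.2
  exact Cfsg.Agent.Helper37.p3_split V₀ (wS [7]) (wS [12]) (wS [13]) (wS [14])
    (fun v hv => (V_props v hv).1) z_sq (fun v hv => (V_props v hv).2) decomp a_cube b_cube a_ne
    b_not_mem ab_comm t_a t_b a_z b_z card_S Y τ hτ hker hdY
    (Cfsg.Agent.Helper78.p3_abel τ hτ hker (wS [0]) (wS [1]) (wS [2]) (wS [3]) (wS [4]) (wS [5])
      v_comm (hk 0 (by norm_num)) (hk 1 (by norm_num)) (hk 2 (by norm_num)) (hk 3 (by norm_num))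
      hk5)

/-- **The Schur multiplier of `Co3` is trivial.** -/
theorem co3_mult : Cfsg.HasCyclicSchurMultiplier ↥Cfsg.Spor.Co3 1 :=
  co3_mult_of_three three_part

end Cfsg.Agent.Helper92.Co3SM
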