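import Cfsg.Agent.Helper92.Co3SMAtoms

/-!
# The relator check for words in the ten symbols of the Co3 chain (helper92)
-/

set_option autoImplicit false

namespace Cfsg.Agent.Helper92.Co3SM

/-- a relator in the ten symbols holds -/
def relOK (w : List ℕ) : Bool := w.all (fun j => Nat.blt j 10) && wordEq smAct w []

end Cfsg.Agent.Helper92.Co3SM
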