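import Cfsg.Agent.Helper92.Co3SMData

/-!
# Chain certificate for the 2-part of the Schur multiplier of Co3 (helper92, generated)

Data in the format of `Cfsg.Agent.Helper89.Chain` along `5 < 5^(1+2) < U3(5) < McL < Co3`
(5, 25, 1008, 7128 and 552 rows) on five generators of orders `5, 5, 3, 11, 23`
(symbols `2 i`, `2 i + 1` for the `i`-th generator and its inverse).  This file: deduction steps of level 3, part 0.
-/

set_option autoImplicit false
set_option maxRecDepth 100000

namespace Cfsg.Agent.Helper92.Co3SM

open Cfsg.Agent.Helper89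

theorem run3_0 : LT.runSteps (tbl 10 6 tab3) (tbl 10 6 ltab3) 6 (Level.relsOf ex3 ws3) E3_0 steps3_0 = some E3_1 := by
  decide +kernel

theorem run3_1 : LT.runSteps (tbl 10 6 tab3) (tbl 10 6 ltab3) 6 (Level.relsOf ex3 ws3) E3_1 steps3_1 = some (2 ^ (1008 * 6) - 1) := by
  decide +kernel


end Cfsg.Agent.Helper92.Co3SM
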