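import Cfsg.Agent.Helper92.Co3SMData
import Cfsg.Agent.Helper92.Co3SMTab4
import Cfsg.Agent.Helper92.Co3SMSteps4_2

/-!
# Chain certificate for the 2-part of the Schur multiplier of Co3 (helper92, generated)

Data in the format of `Cfsg.Agent.Helper89.Chain` along `5 < 5^(1+2) < U3(5) < McL < Co3`
(5, 25, 1008, 7128 and 552 rows) on five generators of orders `5, 5, 3, 11, 23`
(symbols `2 i`, `2 i + 1` for the `i`-th generator and its inverse).  This file: deduction steps of level 4, part 2.
-/

set_option autoImplicit false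
set_option maxRecDepth 100000

namespace Cfsg.Agent.Helper92.Co3SM

open Cfsg.Agent.Helper89

theorem run4_8 : LT.runSteps T4 Lb4 8 (Level.relsOf ex4 ws4) E4_8 steps4_8 = some E4_9 := by
  decide +kernel

theorem run4_9 : LT.runSteps T4 Lb4 8 (Level.relsOf ex4 ws4) E4_9 steps4_9 = some E4_10 := by
  decide +kernel

theorem run4_10 : LT.runSteps T4 Lb4 8 (Level.relsOf ex4 ws4) E4_10 steps4_10 = some E4_11 := by
  decide +kernel

theorem run4_11 : LT.runSteps T4 Lb4 8 (Level.relsOf ex4 ws4) E4_11 steps4_11 = some E4_12 := by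
  decide +kernel


end Cfsg.Agent.Helper92.Co3SM
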