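import Cfsg.Agent.Helper86.McLFBase
import Cfsg.Agent.Helper92.Co3Gen

/-!
# Words in tables of packed elements of the automorphism group of the Leech lattice (helper92)

A table is a family `elt : ℕ → Co0` with a fast action `act : ℕ → ℕ → ℕ` on biased packed
vectors (`IsTab`).  Equality and inequality of products of words are decided by the kernel on
the 24 vectors `8 e_i`.  Also: a packed element with a proof of membership in `co3Sub`.
-/

set_option autoImplicit false

namespace Cfsg.Agent.Helper92.Co3SM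

open Cfsg MulAction Cfsg.Agent.Helper92 Cfsg.Agent.Helper92.Mat Cfsg.Agent.Helper86
open Cfsg.Agent.Helper7 (idx pt)

/-- `act j` computes the action of `elt j` on biased packed vectors -/
def IsTab (elt : ℕ → Co0) (act : ℕ → ℕ → ℕ) : Prop :=
  ∀ (j : ℕ) (x : leechLattice), sqNorm (x : GolayPt → ℤ) ≤ 1024 →
    act j (mcCode x) = mcCode (elt j • x)

/-- the product of a word -/
noncomputable def wd (elt : ℕ → Co0) : List ℕ → Co0
  | [] => 1
  | j :: l => elt j * wd elt l

/-- the fast action of a word -/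
def acts (act : ℕ → ℕ → ℕ) : List ℕ → ℕ → ℕ
  | [], X => X
  | j :: l, X => act j (acts act l X)

theorem sm_norm (g : Co0) {x : leechLattice} (hn : sqNorm (x : GolayPt → ℤ) ≤ 1024) :
    sqNorm ((g • x : leechLattice) : GolayPt → ℤ) ≤ 1024 := by
  rw [co0_sqNorm]
  exact hn

theorem acts_spec {elt : ℕ → Co0} {act : ℕ → ℕ → ℕ} (h : IsTab elt act) :
    ∀ (l : List ℕ) (x : leechLattice), sqNorm (x : GolayPt → ℤ) ≤ 1024 →
      acts act l (mcCode x) = mcCode (wd elt l • x)
  | [], x, _ => by rw [acts, wd, one_smul]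
  | j :: l, x, hn => by
    rw [acts, wd, mul_smul, acts_spec h l x hn]
    exact h j _ (sm_norm _ hn)

theorem wd_nil (elt : ℕ → Co0) : wd elt [] = 1 := rfl

theorem wd_cons (elt : ℕ → Co0) (j : ℕ) (l : List ℕ) : wd elt (j :: l) = elt j * wd elt l := rfl

theorem wd_append (elt : ℕ → Co0) : ∀ l l' : List ℕ, wd elt (l ++ l') = wd elt l * wd elt l'
  | [], l' => by rw [List.nil_append, wd, one_mul]
  | j :: l, l' => by rw [List.cons_append, wd, wd, wd_append elt l l', mul_assoc]

theorem wd_single (elt : ℕ → Co0) (j : ℕ) : wd elt [j] = elt j := by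
  rw [wd, wd, mul_one]

/-- two words agree on the vectors `8 e_i` -/
def wordEq (act : ℕ → ℕ → ℕ) (l l' : List ℕ) : Bool :=
  allTo 24 fun i => Nat.beq (acts act l (mcB8 i)) (acts act l' (mcB8 i))

theorem wordEq_spec {elt : ℕ → Co0} {act : ℕ → ℕ → ℕ} (h : IsTab elt act) {l l' : List ℕ}
    (hw : wordEq act l l' = true) : wd elt l = wd elt l' :=
  mc_eq_of_basis (acts act l) (acts act l') (acts_spec h l) (acts_spec h l') hw

theorem wordNe_spec {elt : ℕ → Co0} {act : ℕ → ℕ → ℕ} (h : IsTab elt act) {l l' : List ℕ}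
    (hw : wordEq act l l' = false) : wd elt l ≠ wd elt l' := by
  intro he
  have : wordEq act l l' = true := by
    unfold wordEq
    rw [allTo_iff]
    intro i hi
    have h1 := acts_spec h l (P (pt i) (pt i)) (sqNorm_P _)
    have h2 := acts_spec h l' (P (pt i) (pt i)) (sqNorm_P _)
    rw [mcB8_spec, Cfsg.Agent.Helper7.idx_pt hi] at h1 h2
    rw [h1, h2, he]
    exact Nat.beq_refl _
  rw [hw] at this
  exact absurd this (by decide)

/-- a packed element of `co3Sub` -/
def IsPkC (g : Co0) (C : List ℕ) : Prop := IsPk g C ∧ g ∈ co3Sub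

theorem forall2_pkC {gs : List Co0} {Cs : List (List ℕ)} (h : List.Forall₂ IsPkC gs Cs) :
    List.Forall₂ IsPk gs Cs ∧ gs.prod ∈ co3Sub := by
  induction h with
  | nil => exact ⟨.nil, by rw [List.prod_nil]; exact Subgroup.one_mem _⟩
  | cons hg _ ih =>
    exact ⟨.cons hg.1 ih.1, by rw [List.prod_cons]; exact Subgroup.mul_mem _ hg.2 ih.2⟩

theorem isPkC_prod {gs : List Co0} {Cs : List (List ℕ)} (h : List.Forall₂ IsPkC gs Cs)
    {M : List (List ℤ)} (hc : colsChkP Cs M = true) {C : List ℕ} (hC : pkChk M C = true) :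
    IsPkC gs.prod C :=
  ⟨(isMat_prod_pk (forall2_pkC h).1 hc).isPk hC, (forall2_pkC h).2⟩

theorem forall2_replicate_pkC {g : Co0} {C : List ℕ} (h : IsPkC g C) (n : ℕ) :
    List.Forall₂ IsPkC (List.replicate n g) (List.replicate n C) := by
  induction n with
  | zero => exact .nil
  | succ n ih => exact .cons h ih

theorem forall2_append_pkC {gs gs' : List Co0} {Cs Cs' : List (List ℕ)}
    (h : List.Forall₂ IsPkC gs Cs) (h' : List.Forall₂ IsPkC gs' Cs') :
    List.Forall₂ IsPkC (gs ++ gs') (Cs ++ Cs') := by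
  induction h with
  | nil => exact h'
  | cons hg _ ih => exact .cons hg ih

end Cfsg.Agent.Helper92.Co3SM
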