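import Cfsg.Agent.Helper92.LeechCensus32
import Cfsg.Agent.Helper92.LeechIrr

/-!
# The 552 minimal vectors `v` with `u - v` minimal, for `u` of squared length 48

`ncard_552`: for a lattice vector `u` with `sqNorm u = 48` there are exactly `552` lattice
vectors `v` with `sqNorm v = 32` and `sqNorm (u - v) = 32`.
-/

set_option autoImplicit false

namespace Cfsg.Agent.Helper92

open Cfsg Cfsg.Agent.Helper26

/-! ### The octads through `∞` -/

theorem count_octads_none :
    countBelow (fun k => Nat.beq (pc24 (codeOf k)) 8 && (codeOf k).testBit 23) 4096 = 253 := by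
  decide +kernel

/-- the octads through `∞` -/
def octN : Finset (Finset GolayPt) :=
  ((Finset.range 4096).filter
    (fun k => (Nat.beq (pc24 (codeOf k)) 8 && (codeOf k).testBit 23) = true)).image
      (fun k => dec (codeOf k))

theorem mem_octN (o : Finset GolayPt) : o ∈ octN ↔ o ∈ octads ∧ none ∈ o := by
  rw [← mem_octF]
  unfold octN octF wtF wtIdx
  simp only [Finset.mem_image, Finset.mem_filter, Finset.mem_range, Bool.and_eq_true]
  constructor
  · rintro ⟨k, ⟨hk, h8, h23⟩, rfl⟩
    exact ⟨⟨k, ⟨hk, h8⟩, rfl⟩, (mem_dec _ _).2 h23⟩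
  · rintro ⟨⟨k, ⟨hk, h8⟩, rfl⟩, hn⟩
    exact ⟨k, ⟨hk, h8, (mem_dec _ _).1 hn⟩, rfl⟩

theorem card_octN : octN.card = 253 := by
  unfold octN
  rw [Finset.card_image_of_injOn]
  · exact (card_filter_range _ _).trans count_octads_none
  · intro k₁ h₁ k₂ h₂ h
    simp only [Finset.coe_filter, Finset.mem_range, Set.mem_ofPred_eq] at h₁ h₂
    have h' : codeOf k₁ = codeOf k₂ := by
      have := congrArg enc h
      rwa [enc_dec _ (codeOf_lt k₁), enc_dec _ (codeOf_lt k₂)] at this
    rw [← codeOf_mod_self k₁ h₁.1, ← codeOf_mod_self k₂ h₂.1, h']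

/-! ### Coordinate sums -/

theorem dotInt_five (j : GolayPt) (x : GolayPt → ℤ) :
    dotInt (five j) x = ∑ i, x i + 4 * x j := by
  unfold dotInt five
  have h : ∀ i, (if i = j then (5 : ℤ) else 1) * x i = x i + (if i = j then 4 * x i else 0) := by
    intro i
    split_ifs <;> ring
  simp only [h]
  rw [Finset.sum_add_distrib, Finset.sum_ite_eq' Finset.univ j (fun i => 4 * x i),
    if_pos (Finset.mem_univ j)]

theorem sum_signFun (c : Finset GolayPt) (y : GolayPt → ℤ) :
    ∑ i, signFun c y i = ∑ i, y i - 2 * ∑ i ∈ c, y i := by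
  have h : ∀ i, signFun c y i = y i - (if i ∈ c then 2 * y i else 0) := by
    intro i
    rw [signFun_apply]
    split_ifs <;> ring
  simp only [h]
  rw [Finset.sum_sub_distrib, Finset.sum_ite_mem, Finset.univ_inter, Finset.mul_sum]

theorem sum_ov_single (j : GolayPt) : ∑ i, ov {j} i = 20 := by
  revert j
  decide

theorem sum_ov_single_on (c : Finset GolayPt) (j : GolayPt) :
    ∑ i ∈ c, ov {j} i = (c.card : ℤ) - (if j ∈ c then 4 else 0) := by
  have h : ∀ i, ov {j} i = 1 - (if i = j then 4 else 0) := by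
    intro i
    unfold ov
    by_cases hi : i = j
    · rw [if_pos (by rw [hi]; exact Finset.mem_singleton_self j), if_pos hi]
      norm_num
    · rw [if_neg (by rw [Finset.mem_singleton]; exact hi), if_neg hi]
      norm_num
  simp only [h]
  rw [Finset.sum_sub_distrib, Finset.sum_ite_eq' c j (fun _ => (4 : ℤ))]
  simp

theorem signFun_empty' (y : GolayPt → ℤ) : signFun ∅ y = y := by
  funext i
  rw [signFun_apply, if_neg (Finset.notMem_empty i)]

/-! ### The four families -/

/-- the condition "`u - x` is minimal" for `u = (5, 1^23)` in terms of coordinates -/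
def D552 (x : GolayPt → ℤ) : Prop := ∑ i, x i + 4 * x none = 24

def fam1 : Set (GolayPt → ℤ) :=
  (fun j : GolayPt => pv {none, j} ∅) '' ((Finset.univ.erase none : Finset GolayPt) : Set GolayPt)

def fam2 : Set (GolayPt → ℤ) := (fun o : Finset GolayPt => dv o ∅) '' (octN : Set (Finset GolayPt))

def fam3 : Set (GolayPt → ℤ) :=
  (fun c : Finset GolayPt => signFun c (ov {none})) '' (octN : Set (Finset GolayPt))

def fam4 : Set (GolayPt → ℤ) :=
  (fun j : GolayPt => ov {j}) '' ((Finset.univ.erase none : Finset GolayPt) : Set GolayPt)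

theorem card_erase_none : (Finset.univ.erase none : Finset GolayPt).card = 23 := by decide

theorem ncard_fam1 : fam1.ncard = 23 := by
  unfold fam1
  rw [Set.InjOn.ncard_image, Set.ncard_coe_finset, card_erase_none]
  intro j hj j' hj' h
  have hj1 : j ≠ none := (Finset.mem_erase.1 (Finset.mem_coe.1 hj)).1
  have hj1' : j' ≠ none := (Finset.mem_erase.1 (Finset.mem_coe.1 hj')).1
  have h1 := congrFun h j
  unfold pv dv at h1
  simp only [Finset.notMem_empty, if_false, Finset.mem_insert, Finset.mem_singleton, hj1,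
    false_or, if_true] at h1
  by_contra hne
  rw [if_neg hne] at h1
  norm_num at h1

theorem ncard_fam2 : fam2.ncard = 253 := by
  unfold fam2
  rw [Set.InjOn.ncard_image, Set.ncard_coe_finset, card_octN]
  intro o _ o' _ h
  exact (dv_injective (Finset.empty_subset o) (Finset.empty_subset o') h).1

theorem ncard_fam3 : fam3.ncard = 253 := by
  unfold fam3
  rw [Set.InjOn.ncard_image, Set.ncard_coe_finset, card_octN]
  intro c _ c' _ h
  exact (signFun_inj_of_one_mod (ov_mod {none}) (ov_mod {none}) h).1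

theorem ncard_fam4 : fam4.ncard = 23 := by
  unfold fam4
  rw [Set.InjOn.ncard_image, Set.ncard_coe_finset, card_erase_none]
  intro j _ j' _ h
  exact Finset.singleton_injective (ov_injective h)

theorem fam1_none {x : GolayPt → ℤ} (hx : x ∈ fam1) : x none = 4 := by
  obtain ⟨j, -, rfl⟩ := hx
  unfold pv dv
  simp

theorem fam2_none {x : GolayPt → ℤ} (hx : x ∈ fam2) : x none = 2 := by
  obtain ⟨o, ho, rfl⟩ := hx
  have hn := ((mem_octN o).1 (Finset.mem_coe.1 ho)).2
  unfold dv
  simp [hn]

theorem fam3_none {x : GolayPt → ℤ} (hx : x ∈ fam3) : x none = 3 := by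
  obtain ⟨c, hc, rfl⟩ := hx
  have hn := ((mem_octN c).1 (Finset.mem_coe.1 hc)).2
  show signFun c (ov {none}) none = 3
  rw [signFun_apply, if_pos hn]
  unfold ov
  simp

theorem fam4_none {x : GolayPt → ℤ} (hx : x ∈ fam4) : x none = 1 := by
  obtain ⟨j, hj, rfl⟩ := hx
  have hj1 : j ≠ none := (Finset.mem_erase.1 (Finset.mem_coe.1 hj)).1
  show ov {j} none = 1
  unfold ov
  rw [if_neg (by rw [Finset.mem_singleton]; exact Ne.symm hj1)]

/-! ### The set of solutions -/

theorem fam1_spec {x : GolayPt → ℤ} (hx : x ∈ fam1) :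
    x ∈ leechLattice ∧ sqNorm x = 32 ∧ D552 x := by
  have hn := fam1_none hx
  obtain ⟨j, hj, rfl⟩ := hx
  have hj1 : j ≠ none := (Finset.mem_erase.1 (Finset.mem_coe.1 hj)).1
  have hcard : ({none, j} : Finset GolayPt).card = 2 := Finset.card_pair (Ne.symm hj1)
  have hmem : pv {none, j} ∅ ∈ evenPair :=
    ⟨{none, j}, hcard, ∅, Finset.mem_powerset.2 (Finset.empty_subset _), rfl⟩
  refine ⟨(evenPair_spec hmem).1, (evenPair_spec hmem).2.1, ?_⟩
  unfold D552
  rw [hn]
  have : ∑ i, pv {none, j} ∅ i = 2 * ∑ i, dv {none, j} ∅ i := by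
    unfold pv
    rw [Finset.mul_sum]
  rw [this, sum_dv (Finset.empty_subset _), hcard]
  simp

theorem fam2_spec {x : GolayPt → ℤ} (hx : x ∈ fam2) :
    x ∈ leechLattice ∧ sqNorm x = 32 ∧ D552 x := by
  have hn := fam2_none hx
  obtain ⟨o, ho, rfl⟩ := hx
  have ho' := (mem_octN o).1 (Finset.mem_coe.1 ho)
  have hmem : dv o ∅ ∈ evenOct32 :=
    ⟨o, ho'.1, ∅, Finset.mem_filter.2 ⟨Finset.mem_powerset.2 (Finset.empty_subset _), by simp⟩, rfl⟩
  refine ⟨(evenOct32_spec hmem).1, (evenOct32_spec hmem).2.1, ?_⟩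
  unfold D552
  have h8 : o.card = 8 := ho'.1.2
  rw [hn, sum_dv (Finset.empty_subset _), h8]
  simp

theorem fam3_spec {x : GolayPt → ℤ} (hx : x ∈ fam3) :
    x ∈ leechLattice ∧ sqNorm x = 32 ∧ D552 x := by
  have hn := fam3_none hx
  obtain ⟨c, hc, rfl⟩ := hx
  have hc' := (mem_octN c).1 (Finset.mem_coe.1 hc)
  have hmem : signFun c (ov {none}) ∈ oddOne := ⟨c, hc'.1.1, none, Finset.mem_univ _, rfl⟩
  refine ⟨(oddOne_spec hmem).1, (oddOne_spec hmem).2.1, ?_⟩
  unfold D552
  have h8 : c.card = 8 := hc'.1.2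
  rw [hn, sum_signFun, sum_ov_single, sum_ov_single_on, if_pos hc'.2, h8]
  norm_num

theorem fam4_spec {x : GolayPt → ℤ} (hx : x ∈ fam4) :
    x ∈ leechLattice ∧ sqNorm x = 32 ∧ D552 x := by
  have hn := fam4_none hx
  obtain ⟨j, hj, rfl⟩ := hx
  have hmem : ov {j} ∈ oddOne :=
    ⟨∅, supports_empty, j, Finset.mem_univ _, (signFun_empty' _).symm⟩
  refine ⟨(oddOne_spec hmem).1, (oddOne_spec hmem).2.1, ?_⟩
  unfold D552
  rw [hn, sum_ov_single]
  norm_num

theorem set552_eq : {x : GolayPt → ℤ | x ∈ leechLattice ∧ sqNorm x = 32 ∧ D552 x} =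
    ((fam1 ∪ fam2) ∪ fam3) ∪ fam4 := by
  ext x
  constructor
  · rintro ⟨hx, hn, hD⟩
    have hmem : x ∈ (evenOct32 ∪ evenPair) ∪ oddOne := by
      rw [← set32_eq]
      exact ⟨hx, hn⟩
    unfold D552 at hD
    rcases hmem with (h | h) | h
    · -- octad shape
      obtain ⟨o, ho, S, hS, rfl⟩ := h
      have hSo := Finset.mem_powerset.1 (Finset.mem_filter.1 hS).1
      have h8 : o.card = 8 := ho.2
      rw [sum_dv hSo, h8] at hD
      have hS0 : S.card = 0 := by
        rcases dv_cases o S none with e | e | e <;> rw [e] at hD <;> omega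
      have hSe : S = ∅ := Finset.card_eq_zero.1 hS0
      subst hSe
      have hno : none ∈ o := by
        rw [← dv_ne_zero hSo none]
        intro e
        rw [e] at hD
        simp at hD
      left; left; right
      exact ⟨o, Finset.mem_coe.2 ((mem_octN o).2 ⟨ho, hno⟩), rfl⟩
    · -- pair shape
      obtain ⟨T, hT, S, hS, rfl⟩ := h
      have hST := Finset.mem_powerset.1 hS
      have hsum : ∑ i, pv T S i = 2 * ∑ i, dv T S i := by
        unfold pv
        rw [Finset.mul_sum]
      have hpn : pv T S none = 2 * dv T S none := rfl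
      rw [hsum, sum_dv hST, hT, hpn] at hD
      have hS0 : S.card = 0 := by
        rcases dv_cases T S none with e | e | e <;> rw [e] at hD <;> omega
      have hSe : S = ∅ := Finset.card_eq_zero.1 hS0
      subst hSe
      have hnT : none ∈ T := by
        rw [← dv_ne_zero hST none]
        intro e
        rw [e] at hD
        simp at hD
      obtain ⟨a, b, hab, rfl⟩ := Finset.card_eq_two.1 hT
      left; left; left
      rcases Finset.mem_insert.1 hnT with e | e
      · subst e
        exact ⟨b, Finset.mem_coe.2 (Finset.mem_erase.2 ⟨Ne.symm hab, Finset.mem_univ _⟩), rfl⟩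
      · have e' : b = none := (Finset.mem_singleton.1 e).symm
        subst e'
        refine ⟨a, Finset.mem_coe.2 (Finset.mem_erase.2 ⟨hab, Finset.mem_univ _⟩), ?_⟩
        show pv {none, a} ∅ = pv {a, none} ∅
        rw [Finset.pair_comm]
    · -- odd shape
      obtain ⟨c, hc, j, -, rfl⟩ := h
      rw [sum_signFun, sum_ov_single, sum_ov_single_on, signFun_apply] at hD
      have hov : ov {j} none = if none = j then -3 else 1 := by
        unfold ov
        by_cases e : none = j
        · rw [if_pos (by rw [e]; exact Finset.mem_singleton_self j), if_pos e]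
        · rw [if_neg (by rw [Finset.mem_singleton]; exact e), if_neg e]
      rw [hov] at hD
      have hcard := card_of_mem_supports hc
      by_cases hj : j ∈ c
      · rw [if_pos hj] at hD
        have hc0 : c.card ≠ 0 := by
          intro e
          rw [Finset.card_eq_zero.1 e] at hj
          exact absurd hj (Finset.notMem_empty j)
        have key : c.card = 8 ∧ none ∈ c ∧ none = j := by
          by_cases hn : none ∈ c <;> by_cases e : none = j
          · rw [if_pos hn, if_pos e] at hD
            refine ⟨?_, hn, e⟩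
            omega
          · rw [if_pos hn, if_neg e] at hD
            omega
          · rw [if_neg hn, if_pos e] at hD
            omega
          · rw [if_neg hn, if_neg e] at hD
            omega
        obtain ⟨h8, hnc, e⟩ := key
        subst e
        left; right
        exact ⟨c, Finset.mem_coe.2 ((mem_octN c).2 ⟨⟨hc, h8⟩, hnc⟩), rfl⟩
      · rw [if_neg hj] at hD
        have key : c.card = 0 ∧ none ≠ j := by
          by_cases hn : none ∈ c <;> by_cases e : none = j
          · rw [if_pos hn, if_pos e] at hD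
            omega
          · rw [if_pos hn, if_neg e] at hD
            omega
          · rw [if_neg hn, if_pos e] at hD
            omega
          · rw [if_neg hn, if_neg e] at hD
            refine ⟨?_, e⟩
            omega
        obtain ⟨h0, e⟩ := key
        have hce : c = ∅ := Finset.card_eq_zero.1 h0
        subst hce
        right
        exact ⟨j, Finset.mem_coe.2 (Finset.mem_erase.2 ⟨Ne.symm e, Finset.mem_univ _⟩),
          (signFun_empty' _).symm⟩
  · rintro (((h | h) | h) | h)
    · exact fam1_spec h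
    · exact fam2_spec h
    · exact fam3_spec h
    · exact fam4_spec h

theorem ncard_set552 :
    {x : GolayPt → ℤ | x ∈ leechLattice ∧ sqNorm x = 32 ∧ D552 x}.ncard = 552 := by
  have f1 : fam1.Finite := Set.finite_of_ncard_ne_zero (by rw [ncard_fam1]; norm_num)
  have f2 : fam2.Finite := Set.finite_of_ncard_ne_zero (by rw [ncard_fam2]; norm_num)
  have f3 : fam3.Finite := Set.finite_of_ncard_ne_zero (by rw [ncard_fam3]; norm_num)
  have f4 : fam4.Finite := Set.finite_of_ncard_ne_zero (by rw [ncard_fam4]; norm_num)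
  have d1 : Disjoint fam1 fam2 := by
    rw [Set.disjoint_left]
    intro x h1 h2
    have a := fam1_none h1
    have b := fam2_none h2
    omega
  have d2 : Disjoint (fam1 ∪ fam2) fam3 := by
    rw [Set.disjoint_left]
    intro x h1 h2
    have b := fam3_none h2
    rcases h1 with h1 | h1
    · have a := fam1_none h1
      omega
    · have a := fam2_none h1
      omega
  have d3 : Disjoint ((fam1 ∪ fam2) ∪ fam3) fam4 := by
    rw [Set.disjoint_left]
    intro x h1 h2
    have b := fam4_none h2
    rcases h1 with (h1 | h1) | h1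
    · have a := fam1_none h1
      omega
    · have a := fam2_none h1
      omega
    · have a := fam3_none h1
      omega
  rw [set552_eq, Set.ncard_union_eq d3 ((f1.union f2).union f3) f4,
    Set.ncard_union_eq d2 (f1.union f2) f3, Set.ncard_union_eq d1 f1 f2, ncard_fam1, ncard_fam2,
    ncard_fam3, ncard_fam4]

/-- the vector `(5, 1^23)` -/
def fiveL : leechLattice :=
  ⟨five none, one_mod_four_mem (five_mod none) (by rw [sqNorm_five]; norm_num)⟩

theorem ncard_552_five :
    {v : leechLattice | sqNorm (v : GolayPt → ℤ) = 32 ∧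
      sqNorm ((fiveL : GolayPt → ℤ) - (v : GolayPt → ℤ)) = 32}.ncard = 552 := by
  rw [← ncard_set552, ← Set.ncard_image_of_injective _ Subtype.val_injective]
  congr 1
  ext x
  constructor
  · rintro ⟨v, ⟨h1, h2⟩, rfl⟩
    refine ⟨v.2, h1, ?_⟩
    rw [sqNorm_sub, h1] at h2
    have h3 : sqNorm (fiveL : GolayPt → ℤ) = 48 := sqNorm_five none
    have h4 : dotInt (fiveL : GolayPt → ℤ) (v : GolayPt → ℤ) =
        ∑ i, (v : GolayPt → ℤ) i + 4 * (v : GolayPt → ℤ) none := dotInt_five none _
    rw [h3, h4] at h2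
    unfold D552
    omega
  · rintro ⟨hx, hn, hD⟩
    refine ⟨⟨x, hx⟩, ⟨hn, ?_⟩, rfl⟩
    show sqNorm ((fiveL : GolayPt → ℤ) - x) = 32
    have h3 : sqNorm (fiveL : GolayPt → ℤ) = 48 := sqNorm_five none
    have h4 : dotInt (fiveL : GolayPt → ℤ) x = ∑ i, x i + 4 * x none := dotInt_five none _
    rw [sqNorm_sub, hn, h3, h4]
    unfold D552 at hD
    omega

/-- **A lattice vector of squared length 48 is the sum of two minimal vectors in exactly 552
ordered ways.** -/
theorem ncard_552 (u : leechLattice) (hu : sqNorm (u : GolayPt → ℤ) = 48) :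
    {v : leechLattice | sqNorm (v : GolayPt → ℤ) = 32 ∧
      sqNorm ((u : GolayPt → ℤ) - (v : GolayPt → ℤ)) = 32}.ncard = 552 := by
  obtain ⟨g, hg⟩ := exists_smul_eq_of_norm48 u fiveL hu (sqNorm_five none)
  rw [← ncard_552_five, ← Set.ncard_image_of_injective _ (MulAction.injective g)]
  congr 1
  have key : ∀ v : leechLattice, sqNorm ((fiveL : GolayPt → ℤ) - ((g • v : leechLattice) :
      GolayPt → ℤ)) = sqNorm ((u : GolayPt → ℤ) - (v : GolayPt → ℤ)) := by
    intro v
    have e : g • u - g • v = g • (u - v) := by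
      rw [sub_eq_add_neg, sub_eq_add_neg, co0_add, co0_neg]
    rw [← hg, ← AddSubgroup.coe_sub, e, co0_sqNorm, AddSubgroup.coe_sub]
  ext w
  constructor
  · rintro ⟨v, ⟨h1, h2⟩, rfl⟩
    exact ⟨by rw [co0_sqNorm]; exact h1, by rw [key]; exact h2⟩
  · rintro ⟨h1, h2⟩
    refine ⟨g⁻¹ • w, ⟨by rw [co0_sqNorm]; exact h1, ?_⟩, smul_inv_smul g w⟩
    rw [← key, smul_inv_smul]
    exact h2

end Cfsg.Agent.Helper92
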