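import Cfsg.Agent.Helper92.MonsterConj
import Cfsg.Agent.Helper92.LeechNormal

/-!
# Groups of Monster type: the intersection of `Q` with a conjugate

For `s = g z g⁻¹ ∈ Q`, `s ≠ z`:

* `MSetting.card_inf_le`: `|Q ∩ Q^g| ≤ 2^13`;
* `MSetting.le_card_conj_centralizer`: `|C_{Q^g}(z)| ≥ 2^24`;
* `MSettingF.sign_of_conj`: if `s` represents `(8,0^23)`, every element of `C_{Q^g}(z)` induces
  a sign change on a code word avoiding `∞`;
* `MSettingF.card_inf_conj`: `|Q ∩ Q^g| = 2^13`.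
-/

set_option autoImplicit false

namespace Cfsg.Agent.Helper92

open Cfsg

/-- `|Q ∩ Q^g| ≤ 2^13` -/
theorem MSetting.card_inf_le {G : Type*} [Group G] [Finite G] {z : G} {QG : Subgroup G}
    {Rep : leechLattice → G → Prop} (M : MSetting z QG Rep) (g : G)
    (hgQ : g * z * g⁻¹ ∈ QG) (hgz : g * z * g⁻¹ ≠ z) :
    Nat.card ↥(QG ⊓ QG.map (MulAut.conj g).toMonoidHom) ≤ 2 ^ 13 := by
  have hc8 : 8 < Nat.card ↥QG := by
    rw [M.card]
    norm_num
  have hP := Cfsg.Agent.Helper90.pair_of_les M.les hc8 g hgQ hgz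
  generalize QG.map (MulAut.conj g).toMonoidHom = Q1 at hP ⊢
  have hB := card_abelian_le (E := ↥QG)
    (fun x y => by
      have h1 := M.les.comm x x.2 y y.2
      have e : (x * y * x⁻¹ * y⁻¹ : ↥QG) =
          ⟨(x : G) * (y : G) * (x : G)⁻¹ * (y : G)⁻¹,
            QG.mul_mem (QG.mul_mem (QG.mul_mem x.2 y.2) (QG.inv_mem x.2)) (QG.inv_mem y.2)⟩ :=
        rfl
      rw [e]
      exact M.les.mem_center_of h1 _)
    M.cardZ M.card ((QG ⊓ Q1).subgroupOf QG)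
    (fun x hx y hy => by
      apply Subtype.ext
      exact hP.E_comm (Subgroup.mem_subgroupOf.1 hx) (Subgroup.mem_subgroupOf.1 hy))
  rw [Nat.card_congr (Subgroup.subgroupOfEquivOfLe (inf_le_left : QG ⊓ Q1 ≤ QG)).toEquiv] at hB
  exact hB

/-- `|C_{Q^g}(z)| ≥ 2^24` -/
theorem MSetting.le_card_conj_centralizer {G : Type*} [Group G] [Finite G] {z : G}
    {QG : Subgroup G} {Rep : leechLattice → G → Prop} (M : MSetting z QG Rep) (g : G)
    (hgQ : g * z * g⁻¹ ∈ QG) (hgz : g * z * g⁻¹ ≠ z) :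
    2 ^ 24 ≤ Nat.card ↥(QG.map (MulAut.conj g).toMonoidHom ⊓
      Subgroup.centralizer ({z} : Set G)) := by
  have hc8 : 8 < Nat.card ↥QG := by
    rw [M.card]
    norm_num
  have hP := Cfsg.Agent.Helper90.pair_of_les M.les hc8 g hgQ hgz
  have hcardQ1 : Nat.card ↥(QG.map (MulAut.conj g).toMonoidHom) = 2 ^ 25 := by
    rw [Subgroup.card_map_of_injective (MulAut.conj g).injective, M.card]
  generalize QG.map (MulAut.conj g).toMonoidHom = Q1 at hP hcardQ1 ⊢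
  generalize g * z * g⁻¹ = s at hP
  have hcov : ∃ y₀ : G, (Q1 : Set G) ⊆
      ((Q1 ⊓ Subgroup.centralizer ({z} : Set G) : Subgroup G) : Set G) ∪
      (fun d => y₀ * d) '' ((Q1 ⊓ Subgroup.centralizer ({z} : Set G) : Subgroup G) : Set G) := by
    by_cases hall : ∀ y ∈ Q1, y * z = z * y
    · refine ⟨1, fun y hy => Or.inl ?_⟩
      exact ⟨hy, (mem_centralizer_singleton_iff z y).2 (hall y hy)⟩
    · push Not at hall
      obtain ⟨y₀, hy₀, hy₀z⟩ := hall
      refine ⟨y₀, fun y hy => ?_⟩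
      by_cases hyz : y * z = z * y
      · exact Or.inl ⟨hy, (mem_centralizer_singleton_iff z y).2 hyz⟩
      · right
        have h1 := hP.hQ1.comm_of_ne hy hP.aQ1 hyz
        have h2 := hP.hQ1.comm_of_ne hy₀ hP.aQ1 hy₀z
        have h3 : (y₀⁻¹ * y) * z = z * (y₀⁻¹ * y) := by
          calc (y₀⁻¹ * y) * z = y₀⁻¹ * (y * z * y⁻¹ * z⁻¹) * z * y := by group
            _ = y₀⁻¹ * (y₀ * z * y₀⁻¹ * z⁻¹) * z * y := by rw [h1, h2]
            _ = z * (y₀⁻¹ * y) := by group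
        exact ⟨y₀⁻¹ * y, ⟨Q1.mul_mem (Q1.inv_mem hy₀) hy,
          (mem_centralizer_singleton_iff z _).2 h3⟩, by group⟩
  obtain ⟨y₀, hcov⟩ := hcov
  have h1 := Set.ncard_le_ncard hcov (Set.toFinite _)
  have h2 := Set.ncard_union_le
    ((Q1 ⊓ Subgroup.centralizer ({z} : Set G) : Subgroup G) : Set G)
    ((fun d => y₀ * d) '' ((Q1 ⊓ Subgroup.centralizer ({z} : Set G) : Subgroup G) : Set G))
  rw [Set.ncard_image_of_injective _ (mul_right_injective y₀)] at h2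
  have h3 : (Q1 : Set G).ncard = 2 ^ 25 := by
    rw [← hcardQ1]
    rfl
  have h4 : (((Q1 ⊓ Subgroup.centralizer ({z} : Set G) : Subgroup G) : Set G)).ncard =
      Nat.card ↥(Q1 ⊓ Subgroup.centralizer ({z} : Set G)) := rfl
  rw [h3] at h1
  rw [h4] at h2
  omega

/-- **Elements of `C_{Q^g}(z)` induce sign changes** when `s = g z g⁻¹` represents
`(8,0^23)`. -/
theorem MSettingF.sign_of_conj {G : Type*} [Group G] [Finite G] {z : G} {QG : Subgroup G}
    {Rep : leechLattice → G → Prop} (MF : MSettingF z QG Rep) (g : G)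
    (hgQ : g * z * g⁻¹ ∈ QG) (hgz : g * z * g⁻¹ ≠ z) (hrep : Rep U4 (g * z * g⁻¹))
    (d : G) (hd : d ∈ QG.map (MulAut.conj g).toMonoidHom) (hdz : d * z = z * d) :
    ∃ c, ∃ hc : C1 c, MSetting.Ind Rep z (signAut c hc.1) d := by
  have M := MF.toM
  have hc8 : 8 < Nat.card ↥QG := by
    rw [M.card]
    norm_num
  have hP := Cfsg.Agent.Helper90.pair_of_les M.les hc8 g hgQ hgz
  generalize hs : g * z * g⁻¹ = s at hgQ hgz hrep hP
  generalize hQ1 : QG.map (MulAut.conj g).toMonoidHom = Q1 at hP hd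
  have hzs : z * s = s * z := hP.ab_comm
  have hs1 : s ≠ 1 := hP.b_ne_one
  have hstab : ∀ γ : Co0, (∃ d ∈ Q1, MSetting.Ind Rep z γ d) → StabCross γ := by
    rintro γ ⟨d, hd, hi⟩
    have h2 := hi.2 _ _ hrep
    have e : d * s * d⁻¹ = s := by
      rw [hP.hQ1.central d hd]
      group
    rw [e] at h2
    exact stabCross_of_cong (M.rep_inj h2 hrep)
  have conjR : ∀ (σ' : Co0) (h' : G), MSetting.Ind Rep z σ' h' → h' * s * h'⁻¹ = s →
      ∀ γ : Co0, (∃ d ∈ Q1, MSetting.Ind Rep z γ d) →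
      ∃ d ∈ Q1, MSetting.Ind Rep z (σ' * γ * σ'⁻¹) d := by
    rintro σ' h' hi' hh' γ ⟨d, hd, hi⟩
    have hh's : h' * s = s * h' := by
      calc h' * s = (h' * s * h'⁻¹) * h' := by group
        _ = s * h' := by rw [hh']
    exact ⟨h' * d * h'⁻¹, hP.hQ1.norm h' hh's d hd,
      MSetting.ind_mul (MSetting.ind_mul hi' hi) (M.ind_inv hi')⟩
  have hnorm : ∀ σ : Co0, StabCross σ → ∀ γ : Co0, (∃ d ∈ Q1, MSetting.Ind Rep z γ d) →
      ∃ d ∈ Q1, MSetting.Ind Rep z (σ * γ * σ⁻¹) d := by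
    intro σ hσ γ hex
    obtain ⟨h, hi⟩ := M.act σ
    have h2 := M.rep_cong (hi.2 _ _ hrep) (cong_of_stabCross hσ)
    rcases M.uniq _ _ _ hrep h2 with h3 | h3
    · exact conjR σ h hi h3 γ hex
    · have hbQ : s * z ∈ QG := QG.mul_mem hgQ M.les.mem
      have hb1 : s * z ≠ 1 := by
        intro h4
        apply hgz
        calc s = s * z * z⁻¹ := by group
          _ = z := by rw [h4, one_mul, M.les.inv_eq]
      have hbz : s * z ≠ z := by
        intro h4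
        apply hs1
        calc s = s * z * z⁻¹ := by group
          _ = 1 := by rw [h4, mul_inv_cancel]
      obtain ⟨q, hq, hqb⟩ := M.les.exists_conj hbQ hb1 hbz
      have hqs : q * h * s * (q * h)⁻¹ = s := by
        calc q * h * s * (q * h)⁻¹ = q * (h * s * h⁻¹) * q⁻¹ := by group
          _ = z * (s * z) := by rw [h3, hqb]
          _ = (z * s) * z := by group
          _ = (s * z) * z := by rw [hzs]
          _ = s * (z * z) := by group
          _ = s := by rw [M.zsq, mul_one]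
      obtain ⟨γq, hγq⟩ := M.act' q (M.zcomm hq)
      have hiq : MSetting.Ind Rep z γq q := ⟨M.zcomm hq, hγq⟩
      have h5 := conjR (γq * σ) (q * h) (MSetting.ind_mul hiq hi) hqs γ hex
      rw [conj_neg_central σ γ (M.ind_mem hq hiq)] at h5
      exact h5
  have hsq : ∀ γ : Co0, (∃ d ∈ Q1, MSetting.Ind Rep z γ d) → γ * γ = 1 ∨ γ * γ = negAut := by
    rintro γ ⟨d, hd, hi⟩
    have hdd : d * d ∈ QG := by
      rcases hP.hQ1.sq_mem hd with h | h
      · rw [h]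
        exact QG.one_mem
      · rw [h]
        exact hgQ
    exact M.ind_mem hdd (MSetting.ind_mul hi hi)
  have hcomm : ∀ γ γ' : Co0, (∃ d ∈ Q1, MSetting.Ind Rep z γ d) →
      (∃ d ∈ Q1, MSetting.Ind Rep z γ' d) →
      γ * γ' = γ' * γ ∨ γ * γ' = negAut * (γ' * γ) := by
    rintro γ γ' ⟨d, hd, hi⟩ ⟨d', hd', hi'⟩
    have hdd : d * d' * d⁻¹ * d'⁻¹ ∈ QG := by
      rcases hP.hQ1.comm d hd d' hd' with h | h
      · rw [h]
        exact QG.one_mem
      · rw [h]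
        exact hgQ
    have hi2 := MSetting.ind_mul (MSetting.ind_mul (MSetting.ind_mul hi hi') (M.ind_inv hi))
      (M.ind_inv hi')
    have e : γ * γ' = (γ * γ' * γ⁻¹ * γ'⁻¹) * (γ' * γ) := by group
    rcases M.ind_mem hdd hi2 with h4 | h4
    · left
      rw [e, h4, one_mul]
    · right
      rw [e, h4]
  obtain ⟨γ, hγ⟩ := M.act' d hdz
  have hi : MSetting.Ind Rep z γ d := ⟨hdz, hγ⟩
  obtain ⟨c, hc, rfl⟩ := sign_of_normal_monomial
    (fun γ => ∃ d ∈ Q1, MSetting.Ind Rep z γ d) hstab hnorm hsq hcomm γ ⟨d, hd, hi⟩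
  obtain ⟨c', hc', h | h⟩ := signAut_C1 c hc
  · exact ⟨c', hc', by rw [← h]; exact hi⟩
  · refine ⟨c', hc', ?_⟩
    rw [← h]
    have := MSetting.ind_mul M.ind_neg hi
    rwa [one_mul] at this

/-- `|Q ∩ Q^g| ≥ 2^13` when `s = g z g⁻¹` represents `(8,0^23)` -/
theorem MSettingF.le_card_inf_of_U4 {G : Type*} [Group G] [Finite G] {z : G} {QG : Subgroup G}
    {Rep : leechLattice → G → Prop} (MF : MSettingF z QG Rep) (g : G)
    (hgQ : g * z * g⁻¹ ∈ QG) (hgz : g * z * g⁻¹ ≠ z) (hrep : Rep U4 (g * z * g⁻¹)) :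
    2 ^ 13 ≤ Nat.card ↥(QG ⊓ QG.map (MulAut.conj g).toMonoidHom) := by
  have M := MF.toM
  have hDcard := M.le_card_conj_centralizer g hgQ hgz
  have hD : ∀ d : ↥(QG.map (MulAut.conj g).toMonoidHom ⊓ Subgroup.centralizer ({z} : Set G)),
      ∃ c : {c : Finset GolayPt // C1 c}, MSetting.Ind Rep z (signAut c.1 c.2.1) (d : G) := by
    rintro ⟨d, hdQ, hdC⟩
    obtain ⟨c, hc, hi⟩ := MF.sign_of_conj g hgQ hgz hrep d hdQ
      ((mem_centralizer_singleton_iff z d).1 hdC)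
    exact ⟨⟨c, hc⟩, hi⟩
  generalize QG.map (MulAut.conj g).toMonoidHom = Q1 at hDcard hD ⊢
  choose κ hκ using hD
  have hfib : ∀ d d' : ↥(Q1 ⊓ Subgroup.centralizer ({z} : Set G)), κ d = κ d' →
      (d : G)⁻¹ * (d' : G) ∈ QG ⊓ Q1 := by
    intro d d' h
    have i1 := hκ d
    have i2 := hκ d'
    rw [← h] at i2
    have i3 := MSetting.ind_mul (M.ind_inv i1) i2
    rw [inv_mul_cancel] at i3
    refine ⟨MF.faith _ i3.1 (fun v x hx => ?_), Q1.mul_mem (Q1.inv_mem d.2.1) d'.2.1⟩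
    have := i3.2 v x hx
    rwa [one_smul] at this
  have hcount : Nat.card ↥(Q1 ⊓ Subgroup.centralizer ({z} : Set G)) ≤
      Nat.card {c : Finset GolayPt // C1 c} * Nat.card ↥(QG ⊓ Q1) := by
    classical
    let τ : {c : Finset GolayPt // C1 c} → ↥(Q1 ⊓ Subgroup.centralizer ({z} : Set G)) :=
      fun c => if hc : ∃ d : ↥(Q1 ⊓ Subgroup.centralizer ({z} : Set G)), κ d = c
        then Classical.choose hc else 1
    have hτ : ∀ d : ↥(Q1 ⊓ Subgroup.centralizer ({z} : Set G)), κ (τ (κ d)) = κ d := by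
      intro d
      have hc : ∃ d' : ↥(Q1 ⊓ Subgroup.centralizer ({z} : Set G)), κ d' = κ d := ⟨d, rfl⟩
      simp only [τ, dif_pos hc]
      exact Classical.choose_spec hc
    let Φ : ↥(Q1 ⊓ Subgroup.centralizer ({z} : Set G)) →
        {c : Finset GolayPt // C1 c} × ↥(QG ⊓ Q1) :=
      fun d => (κ d, ⟨((τ (κ d) : ↥(Q1 ⊓ Subgroup.centralizer ({z} : Set G))) : G)⁻¹ * (d : G),
        hfib (τ (κ d)) d (hτ d)⟩)
    have hinj : Function.Injective Φ := by
      intro d d' h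
      have h1 : κ d = κ d' := congrArg Prod.fst h
      have h2 : ((τ (κ d) : ↥(Q1 ⊓ Subgroup.centralizer ({z} : Set G))) : G)⁻¹ * (d : G) =
          ((τ (κ d') : ↥(Q1 ⊓ Subgroup.centralizer ({z} : Set G))) : G)⁻¹ * (d' : G) :=
        congrArg (fun p : {c : Finset GolayPt // C1 c} × ↥(QG ⊓ Q1) => (p.2 : G)) h
      rw [h1] at h2
      exact Subtype.ext (mul_left_cancel h2)
    rw [← Nat.card_prod]
    exact Nat.card_le_card_of_injective Φ hinj
  have h6 := Nat.mul_le_mul_right (Nat.card ↥(QG ⊓ Q1)) card_C1_le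
  have h7 := hDcard.trans (hcount.trans h6)
  omega

/-- conjugating by an element of `C_G(z)` -/
theorem MSetting.inf_map_conj {G : Type*} [Group G] {z : G} {QG : Subgroup G}
    {Rep : leechLattice → G → Prop} (M : MSetting z QG Rep) (g h₀ : G) (hh₀ : h₀ * z = z * h₀) :
    QG ⊓ QG.map (MulAut.conj (h₀ * g)).toMonoidHom =
      (QG ⊓ QG.map (MulAut.conj g).toMonoidHom).map (MulAut.conj h₀).toMonoidHom := by
  ext x
  rw [Cfsg.Agent.Helper90.mem_map_conj_iff, Subgroup.mem_inf, Subgroup.mem_inf,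
    Cfsg.Agent.Helper90.mem_map_conj_iff, Cfsg.Agent.Helper90.mem_map_conj_iff]
  have e : (h₀ * g)⁻¹ * x * (h₀ * g) = g⁻¹ * (h₀⁻¹ * x * h₀) * g := by group
  rw [e]
  have h1 : x ∈ QG ↔ h₀⁻¹ * x * h₀ ∈ QG := by
    constructor
    · intro hx
      exact M.les.norm' h₀ hh₀ x hx
    · intro hx
      have := M.les.norm h₀ hh₀ _ hx
      have e2 : h₀ * (h₀⁻¹ * x * h₀) * h₀⁻¹ = x := by group
      rwa [e2] at this
  rw [h1]

/-- **`|Q ∩ Q^g| = 2^13`** for `s = g z g⁻¹ ∈ Q`, `s ≠ z`. -/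
theorem MSettingF.card_inf_conj {G : Type*} [Group G] [Finite G] {z : G} {QG : Subgroup G}
    {Rep : leechLattice → G → Prop} (MF : MSettingF z QG Rep) (g : G)
    (hgQ : g * z * g⁻¹ ∈ QG) (hgz : g * z * g⁻¹ ≠ z) :
    Nat.card ↥(QG ⊓ QG.map (MulAut.conj g).toMonoidHom) = 2 ^ 13 := by
  have M := MF.toM
  obtain ⟨v, hv⟩ := M.surj _ hgQ
  obtain ⟨γ₀, hγ₀⟩ := MF.conj_type4 g hgz hv
  obtain ⟨h₀, hh₀, hact⟩ := M.act γ₀
  have h1 := M.rep_cong (hact _ _ hv) hγ₀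
  have e : h₀ * (g * z * g⁻¹) * h₀⁻¹ = (h₀ * g) * z * (h₀ * g)⁻¹ := by group
  rw [e] at h1
  have hgQ' := M.mem _ _ h1
  have hgz' : (h₀ * g) * z * (h₀ * g)⁻¹ ≠ z := by
    intro h2
    apply hgz
    have hh₀' : h₀⁻¹ * z * h₀ = z := by
      calc h₀⁻¹ * z * h₀ = h₀⁻¹ * (z * h₀) := by group
        _ = h₀⁻¹ * (h₀ * z) := by rw [hh₀]
        _ = z := by group
    calc g * z * g⁻¹ = h₀⁻¹ * ((h₀ * g) * z * (h₀ * g)⁻¹) * h₀ := by group
      _ = z := by rw [h2, hh₀']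
  have h3 := le_antisymm (M.card_inf_le (h₀ * g) hgQ' hgz')
    (MF.le_card_inf_of_U4 (h₀ * g) hgQ' hgz' h1)
  rw [M.inf_map_conj g h₀ hh₀, Subgroup.card_map_of_injective (MulAut.conj h₀).injective] at h3
  exact h3

end Cfsg.Agent.Helper92
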